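import Cfsg.Agent.H1.SUThree.RatMaximal
import Cfsg.Agent.H3.UMax.Stab
import Cfsg.Agent.H3.UMax.RationalFrame

/-!
The subfield subgroup of index two (orthogonal type) is maximal in `SU 3` for odd `q` at least seven.
-/

set_option autoImplicit false
set_option linter.unusedSectionVars false

open scoped MatrixGroups Matrix

namespace Cfsg.Agent.H1.SUThree.Orth

open Cfsg.Geo Cfsg.Agent.H99.Asch Cfsg.Agent.H2.MinU Cfsg.Agent.H2.MinU.S3

variable {F : Type*} [Field F] [Fintype F] {q : ℕ}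

local notation "h₃" => Cfsg.hermForm 3 F q
local notation "M3" => Matrix (Fin 3) (Fin 3) F

/-- An orthogonal rational basis with non-zero norms. -/
theorem exists_orth_rat (hF : Fintype.card F = q ^ 2) (hodd : Odd q) {F₀ : Subfield F}
    {P₀ : GL (Fin 3) F} (hpow : ∀ x : F₀, (x : F) ^ q = x)
    (hf : IsFormRationalStructure h₃ F₀ 1 P₀) :
    ∃ (b : Fin 3 → Fin 3 → F₀) (α : Fin 3 → F₀), (∀ i, α i ≠ 0) ∧
      ∀ i j, h₃ ((P₀ : M3) *ᵥ fun k => (b i k : F)) ((P₀ : M3) *ᵥ fun k => (b j k : F)) =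
        if i = j then (α i : F) else 0 := by
  classical
  let e : (Fin 3 → F₀) → (Fin 3 → F) := fun u => (P₀ : M3) *ᵥ fun i => (u i : F)
  let g₁ : (Fin 3 → F₀) → (Fin 3 → F₀) → F₀ := fun u v => ⟨h₃ (e u) (e v), by
    simpa using hf _ _ (fun i => (u i).2) (fun i => (v i).2)⟩
  have hg₁ : ∀ u v, (g₁ u v : F) = h₃ (e u) (e v) := fun _ _ => rfl
  have eadd : ∀ u u', e (u + u') = e u + e u' := fun u u' => by
    simp only [e, ← Matrix.mulVec_add]; congr 1
  have esmul : ∀ (c : F₀) u, e (c • u) = (c : F) • e u := fun c u => by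
    simp only [e, ← Matrix.mulVec_smul]; congr 1
  let B : LinearMap.BilinForm F₀ (Fin 3 → F₀) := LinearMap.mk₂ F₀ g₁
    (fun u u' v => Subtype.ext (by rw [Subfield.coe_add, hg₁, hg₁, hg₁, eadd, H3.hermForm_add_left hF]))
    (fun c u v => Subtype.ext (by rw [smul_eq_mul, Subfield.coe_mul, hg₁, hg₁, esmul, H3.hermForm_smul_left hF]))
    (fun u v v' => Subtype.ext (by rw [Subfield.coe_add, hg₁, hg₁, hg₁, eadd, H3.hermForm_add_right hF]))
    (fun c u v => Subtype.ext (by
      rw [smul_eq_mul, Subfield.coe_mul, hg₁, hg₁, esmul, H3.hermForm_smul_right hF, hpow]))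
  have hB : ∀ u v, (B u v : F) = h₃ (e u) (e v) := fun _ _ => rfl
  have hherm : ∀ x y, h₃ y x = h₃ x y ^ q := fun x y => (H3.hermForm_pow_q hF x y).symm
  have hsym : ∀ u v, B u v = B v u := fun u v => Subtype.ext (by rw [hB, hB, hherm (e v) (e u), ← hB, hpow])
  have h2 : (2 : F₀) ≠ 0 := by
    intro h
    have h2F : (2 : F) = 0 := by rw [← map_ofNat F₀.subtype 2, h, map_zero]
    exact two_ne_zero_of_odd hF hodd h2F
  have := invertibleOfNonzero h2
  obtain ⟨v, hv⟩ := LinearMap.BilinForm.exists_orthogonal_basis (B := B) ⟨fun x y => hsym x y⟩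
  have hdim : Module.finrank F₀ (Fin 3 → F₀) = 3 := Module.finrank_fin_fun F₀
  let b : Fin 3 → Fin 3 → F₀ := fun i => v (Fin.cast hdim.symm i)
  have hb : ∀ i j, i ≠ j → B (b i) (b j) = 0 := fun i j hij =>
    hv fun h => hij (Fin.cast_injective _ h)
  have hspan : ∀ u, ∃ c : Fin 3 → F₀, u = ∑ i, c i • b i := fun u =>
    ⟨fun i => v.repr u (Fin.cast hdim.symm i), by
      conv_lhs => rw [← v.sum_repr u]
      exact (Equiv.sum_comp (finCongr hdim.symm) fun j => v.repr u j • v j).symm⟩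
  have hn : ∀ i, B (b i) (b i) ≠ 0 := by
    intro i h0
    have hker : ∀ u, B u (b i) = 0 := fun u => by
      obtain ⟨c, rfl⟩ := hspan u
      rw [map_sum, LinearMap.sum_apply]
      refine Finset.sum_eq_zero fun j _ => ?_
      rw [map_smul, LinearMap.smul_apply]
      by_cases hji : j = i
      · rw [hji, h0, smul_zero]
      · rw [hb j i hji, smul_zero]
    have hall : ∀ x, h₃ x (e (b i)) = 0 := by
      intro x
      obtain ⟨y, rfl⟩ : ∃ y, (P₀ : M3) *ᵥ y = x :=
        ⟨((P₀⁻¹ : GL (Fin 3) F) : M3) *ᵥ x, by rw [Matrix.mulVec_mulVec, Units.mul_inv, Matrix.one_mulVec]⟩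
      have h1 : ∀ k, h₃ ((P₀ : M3) *ᵥ Pi.single k 1) (e (b i)) = 0 := fun k => by
        have h := congrArg Subtype.val (hker (Pi.single k 1))
        rw [hB] at h
        convert h using 2
        · show _ = (P₀ : M3) *ᵥ fun j => ((Pi.single k (1 : F₀) : Fin 3 → F₀) j : F)
          congr 1
          funext j
          by_cases hjk : j = k <;> simp [hjk]
        · exact ZeroMemClass.coe_zero F₀ |>.symm
      rw [pi_eq_sum_univ' y, Matrix.mulVec_sum, ← H3.hermB_apply hF, map_sum]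
      refine Finset.sum_eq_zero fun k _ => ?_
      rw [Matrix.mulVec_smul, map_smul, H3.hermB_apply, h1, smul_zero]
    have he0 : e (b i) = 0 := (H3.isHerm_hermB hF 3).sep _ fun x => by
      rw [H3.hermB_apply]
      exact hall x
    have hb0 : b i = 0 := by
      funext j
      exact Subtype.ext (congrFun (Matrix.mulVec_injective_of_isUnit (Units.isUnit P₀)
        (he0.trans (Matrix.mulVec_zero _).symm)) j)
    exact v.ne_zero _ hb0
  refine ⟨b, fun i => B (b i) (b i), hn, fun i j => ?_⟩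
  show h₃ (e (b i)) (e (b j)) = _
  rw [← hB]
  by_cases hij : i = j
  · rw [hij, if_pos rfl]
  · rw [if_neg hij, hb i j hij, ZeroMemClass.coe_zero]

/-- A frame with the standard hyperbolic Gram matrix inside the rational structure. -/
theorem exists_rat_hyperbolic (hF : Fintype.card F = q ^ 2) (hodd : Odd q) {F₀ : Subfield F}
    (hcard : Nat.card F₀ = q) {P₀ : GL (Fin 3) F} (hf : IsFormRationalStructure h₃ F₀ 1 P₀) :
    ∃ (R : Fin 3 → Fin 3 → F) (m : F), m ≠ 0 ∧ (∀ i k, m * R i k ∈ F₀) ∧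
      ∀ i j, h₃ ((P₀ : M3) *ᵥ R i) ((P₀ : M3) *ᵥ R j) = if i.1 + j.1 = 2 then 1 else 0 := by
  classical
  have hpow : ∀ x : F₀, (x : F) ^ q = x := fun x => by rw [← hcard]; exact (mem_subfield_iff F₀ _).1 x.2
  have h2F : (2 : F) ≠ 0 := two_ne_zero_of_odd hF hodd
  obtain ⟨b, α, hα, hg⟩ := exists_orth_rat hF hodd hpow hf
  haveI : Fintype F₀ := Fintype.ofFinite _
  obtain ⟨x, y, hxy⟩ : ∃ x y : F₀, α 0 * x ^ 2 + α 2 + α 1 * y ^ 2 = 0 := by
    obtain ⟨x, y, h⟩ := FiniteField.exists_root_sum_quadratic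
      (f := Polynomial.C (α 0) * Polynomial.X ^ 2 + Polynomial.C (α 2)) (g := Polynomial.C (α 1) * Polynomial.X ^ 2)
      (by
        rw [Polynomial.degree_add_eq_left_of_degree_lt]
        · exact Polynomial.degree_C_mul_X_pow 2 (hα 0)
        · rw [Polynomial.degree_C_mul_X_pow 2 (hα 0), Polynomial.degree_C (hα 2)]
          decide)
      (Polynomial.degree_C_mul_X_pow 2 (hα 1))
      (by rw [← Nat.card_eq_fintype_card, hcard]; exact Nat.odd_iff.mp hodd)
    exact ⟨x, y, by simpa using h⟩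
  have hxy' : (α 0 : F) * (x : F) ^ 2 + α 2 + α 1 * (y : F) ^ 2 = 0 := by exact_mod_cast congrArg Subtype.val hxy
  set c : Fin 3 → Fin 3 → F := fun i k => (b i k : F) with hc
  set v : Fin 3 → Fin 3 → F := fun i => (P₀ : M3) *ᵥ c i with hv
  have hα0 : ∀ i, (α i : F) ≠ 0 := fun i h => hα i (Subtype.ext h)
  have form_comb : ∀ r₀ r₁ r₂ w₀ w₁ w₂ : F, h₃ (r₀ • v 0 + r₁ • v 1 + r₂ • v 2) (w₀ • v 0 + w₁ • v 1 + w₂ • v 2) =
      r₀ * w₀ ^ q * α 0 + r₁ * w₁ ^ q * α 1 + r₂ * w₂ ^ q * α 2 := by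
    intro r₀ r₁ r₂ w₀ w₁ w₂
    simp only [H3.hermForm_add_left hF, H3.hermForm_add_right hF, H3.hermForm_smul_left hF,
      H3.hermForm_smul_right hF, hv]
    simp only [hc, hg, Fin.reduceEq, ↓reduceIte]
    ring
  set δ : F := - (α 0 : F) * α 1 * α 2 with hδ
  have hδ0 : δ ≠ 0 := mul_ne_zero (mul_ne_zero (neg_ne_zero.mpr (hα0 0)) (hα0 1)) (hα0 2)
  have hδq : δ ^ q = δ := by
    rw [hδ, mul_pow, mul_pow, qneg hF, hpow, hpow, hpow]
  obtain ⟨μ, hμ⟩ := H3.exists_norm_eq hF hδq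
  have hμ0 : μ ≠ 0 := fun h => hδ0 (by rw [← hμ, h, zero_pow (by omega)])
  have hμq : μ * μ ^ q = δ := by rw [← pow_succ', hμ]
  have hμq0 : μ ^ q ≠ 0 := pow_ne_zero _ hμ0
  set s : F := (μ⁻¹) with hs
  set t : F := (1 : F) / (2 * α 2) with ht
  -- coefficient triples of the three rational vectors
  set k : Fin 3 → Fin 3 → F := ![![δ * x, δ * y, δ], ![-(α 1 : F) * y, (α 0 : F) * x, 0],
    ![-t * x, -t * y, t]] with hk
  refine ⟨fun i => s • (k i 0 • c 0 + k i 1 • c 1 + k i 2 • c 2), μ, hμ0, fun i j => ?_, fun i j => ?_⟩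
  · have hmem : ∀ a : F₀, (a : F) ∈ F₀ := fun a => a.2
    have hkm : ∀ i j, k i j ∈ F₀ := by
      intro i j
      have ht' : t ∈ F₀ := div_mem (one_mem _) (mul_mem (by exact_mod_cast ((2 : F₀)).2) (hmem _))
      have hd' : δ ∈ F₀ := mul_mem (mul_mem (neg_mem (hmem _)) (hmem _)) (hmem _)
      fin_cases i <;> fin_cases j <;> simp [hk] <;>
        first
          | exact zero_mem _
          | exact mul_mem hd' (hmem _)
          | exact hd'
          | exact mul_mem (hmem _) (hmem _)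
          | exact mul_mem ht' (hmem _)
          | exact ht'
    show μ * (s * _) ∈ F₀
    rw [← mul_assoc, hs, mul_inv_cancel₀ hμ0, one_mul]
    simp only [Pi.add_apply, Pi.smul_apply, smul_eq_mul]
    exact add_mem (add_mem (mul_mem (hkm _ _) (hmem _)) (mul_mem (hkm _ _) (hmem _))) (mul_mem (hkm _ _) (hmem _))
  · simp only [Matrix.mulVec_smul, Matrix.mulVec_add, H3.hermForm_smul_left hF, H3.hermForm_smul_right hF]
    show s * (s ^ q * h₃ (k i 0 • v 0 + k i 1 • v 1 + k i 2 • v 2) (k j 0 • v 0 + k j 1 • v 1 + k j 2 • v 2)) = _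
    rw [form_comb]
    have hkq : ∀ j l, k j l ^ q = k j l := by
      intro j l
      have ht' : t ^ q = t := by rw [ht, div_pow, one_pow, mul_pow, hpow, show (2 : F) = 1 + 1 by norm_num,
        qadd hF, one_pow]
      fin_cases j <;> fin_cases l <;> simp [hk, mul_pow, qneg hF, hδq, ht', hpow, zero_pow (q_ne_zero hF)]
    rw [hkq, hkq, hkq, hs, inv_pow, ← mul_assoc, ← mul_inv, hμq, inv_mul_eq_iff_eq_mul₀ hδ0]
    have h20 : (2 : F) * α 2 ≠ 0 := mul_ne_zero h2F (hα0 2)
    have ht1 : t * (2 * α 2) = 1 := by rw [ht, div_mul_cancel₀ _ h20]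
    fin_cases i <;> fin_cases j <;>
      simp only [hk, Fin.isValue, Fin.zero_eta, Fin.mk_one, Fin.reduceFinMk, Fin.val_zero, Fin.val_one, Fin.val_two,
        Matrix.cons_val_zero, Matrix.cons_val_one, Matrix.cons_val, Nat.reduceAdd, Nat.reduceEqDiff, ↓reduceIte]
    all_goals
      first
        | ring1
        | linear_combination δ ^ 2 * hxy'
        | linear_combination t ^ 2 * hxy'
        | linear_combination (-δ * t) * hxy' + δ * ht1
        | linear_combination ((α 0 : F) * α 1) * hxy' - hδ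

end Cfsg.Agent.H1.SUThree.Orth
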