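import Cfsg.Agent.H1.SUThree.Orthogonal

/-!
Conjunct (6) of the geometric list for `SU(3, q)`.
-/

set_option autoImplicit false
set_option linter.unusedSectionVars false

open scoped MatrixGroups Matrix

namespace Cfsg.Agent.H1.SUThree.Orth

open Cfsg.Geo Cfsg.Agent.H99.Asch Cfsg.Agent.H2.MinU Cfsg.Agent.H2.MinU.S3

variable {F : Type*} [Field F] [Fintype F] {q : ℕ}

local notation "h₃" => Cfsg.hermForm 3 F q
local notation "M3" => Matrix (Fin 3) (Fin 3) F
local notation "G₁" => Cfsg.GU 3 F q ⊓ Cfsg.Geo.specialLinear (Fin 3) F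

/-- The columns of a matrix. -/
lemma mulVec_cols (A : M3) (v : Fin 3 → F) :
    A *ᵥ v = v 0 • A.col 0 + v 1 • A.col 1 + v 2 • A.col 2 := by
  funext i
  simp [Matrix.mulVec, dotProduct, Fin.sum_univ_three, Matrix.col, mul_comm]

/-- Columns with the hyperbolic Gram matrix. -/
lemma form_cols (hF : Fintype.card F = q ^ 2) {A : M3}
    (hA : ∀ i j, h₃ (A.col i) (A.col j) = if i.1 + j.1 = 2 then 1 else 0) (v w : Fin 3 → F) :
    h₃ (A *ᵥ v) (A *ᵥ w) = v 0 * w 2 ^ q + v 1 * w 1 ^ q + v 2 * w 0 ^ q := by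
  rw [mulVec_cols, mulVec_cols]
  simp only [H3.hermForm_add_left hF, H3.hermForm_add_right hF, H3.hermForm_smul_left hF,
    H3.hermForm_smul_right hF, hA, Fin.isValue, Fin.val_zero, Fin.val_one, Fin.val_two, Nat.reduceAdd,
    Nat.reduceEqDiff, ↓reduceIte]
  ring

/-- Such a matrix is invertible. -/
lemma isUnit_cols (hF : Fintype.card F = q ^ 2) {A : M3}
    (hA : ∀ i j, h₃ (A.col i) (A.col j) = if i.1 + j.1 = 2 then 1 else 0) : IsUnit A := by
  have hq := H3.two_le_q hF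
  rw [← Matrix.mulVec_injective_iff_isUnit]
  intro v w h
  have key : ∀ (z : Fin 3 → F), v 0 * z 2 ^ q + v 1 * z 1 ^ q + v 2 * z 0 ^ q =
      w 0 * z 2 ^ q + w 1 * z 1 ^ q + w 2 * z 0 ^ q := fun z => by
    rw [← form_cols hF hA, ← form_cols hF hA]
    rw [show A *ᵥ v = A *ᵥ w from h]
  have h0 : (0 : F) ^ q = 0 := zero_pow (by omega)
  have k0 := key ![0, 0, 1]
  have k1 := key ![0, 1, 0]
  have k2 := key ![1, 0, 0]
  simp [h0] at k0 k1 k2
  funext i
  fin_cases i <;> assumption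

/-- The matrix of the frame. -/
noncomputable def frameMat (D : Dat F q) : M3 := Matrix.of fun i j => bas D j i

lemma frameMat_col (D : Dat F q) (j : Fin 3) : (frameMat D).col j = bas D j := rfl

lemma frameMat_gram (D : Dat F q) (i j : Fin 3) :
    h₃ ((frameMat D).col i) ((frameMat D).col j) = if i.1 + j.1 = 2 then 1 else 0 := by
  rw [frameMat_col, frameMat_col]
  fin_cases i <;> fin_cases j <;>
    simp only [bas, Fin.isValue, Fin.zero_eta, Fin.mk_one, Fin.reduceFinMk, Fin.val_zero, Fin.val_one, Fin.val_two,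
      Matrix.cons_val_zero, Matrix.cons_val_one, Matrix.cons_val, Nat.reduceAdd, Nat.reduceEqDiff, ↓reduceIte]
  exacts [D.p_iso (m := 1), p_u1 D, D.p_p' (m := 1), u1_p D, u1_u1 D, u1_p' D, D.p'_p (m := 1), p'_u1 D, D.p'_iso (m := 1)]

lemma frameMat_co (D : Dat F q) (v : Fin 3 → F) : frameMat D *ᵥ co D v = v := by
  rw [mulVec_cols, frameMat_col, frameMat_col, frameMat_col]
  exact (decomp_co D v).symm

/-- The subfield subgroup of index two is maximal. -/
theorem su_three_orthogonal_maximal (hF : Fintype.card F = q ^ 2) (hodd : Odd q) (h7 : 7 ≤ q)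
    (F₀ : Subfield F) (P : GL (Fin 3) F) (hc : Fintype.card F = Nat.card F₀ ^ 2)
    (hf : IsFormRationalStructure h₃ F₀ 1 P) :
    IsMaximalIn G₁ (subfieldSubgroup F₀ P ⊓ G₁) := by
  classical
  have hcard : Nat.card F₀ = q := Nat.pow_left_injective two_ne_zero (hc.symm.trans hF)
  have hmem : ∀ x : F, x ∈ F₀ ↔ x ^ q = x := fun x => by rw [← hcard]; exact H99.Asch.mem_subfield_iff F₀ x
  have h2 : (2 : F) ≠ 0 := two_ne_zero_of_odd hF hodd
  obtain ⟨R, m, hm, hR, hgram⟩ := exists_rat_hyperbolic hF hodd hcard hf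
  -- the rational frame
  set Rm : M3 := Matrix.of fun k i => R i k with hRm
  set C₀ : M3 := (P : M3) * Rm with hC₀
  have hcol : ∀ i, C₀.col i = (P : M3) *ᵥ R i := fun i => by
    funext a
    simp [hC₀, hRm, Matrix.col, Matrix.mul_apply, Matrix.mulVec, dotProduct]
  have hCgram : ∀ i j, h₃ (C₀.col i) (C₀.col j) = if i.1 + j.1 = 2 then 1 else 0 := fun i j => by
    rw [hcol, hcol]; exact hgram i j
  obtain ⟨C, hC⟩ := isUnit_cols hF hCgram
  obtain ⟨D⟩ := exists_dat hF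
  obtain ⟨B, hB⟩ := isUnit_cols hF (frameMat_gram D)
  have hsub : subfieldSubgroup F₀ P = subfieldSubgroup F₀ C := by
    have hPC : P⁻¹ * C ∈ H98.subGroupF (Fin 3) F₀ := by
      refine H98.mem_subGroupF.mpr ⟨m, hm, fun a b => ?_⟩
      rw [Units.val_mul, hC, hC₀, ← mul_assoc, ← Units.val_mul, inv_mul_cancel, Units.val_one, one_mul]
      exact hR b a
    rw [H98.subfieldSubgroup_eq_map, H98.subfieldSubgroup_eq_map]
    have hC' : C = P * (P⁻¹ * C) := by rw [mul_inv_cancel_left]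
    ext g
    simp only [Subgroup.mem_map, MulEquiv.coe_toMonoidHom, MulAut.conj_apply]
    constructor
    · rintro ⟨x, hx, rfl⟩
      refine ⟨(P⁻¹ * C)⁻¹ * x * (P⁻¹ * C), mul_mem (mul_mem (inv_mem hPC) hx) hPC, ?_⟩
      group
    · rintro ⟨x, hx, rfl⟩
      refine ⟨(P⁻¹ * C) * x * (P⁻¹ * C)⁻¹, mul_mem (mul_mem hPC hx) (inv_mem hPC), ?_⟩
      group
  -- the change of frame is unitary
  have hu : C * B⁻¹ ∈ Cfsg.GU 3 F q := by
    intro v w
    show h₃ (((C * B⁻¹ : GL (Fin 3) F) : M3) *ᵥ v) (((C * B⁻¹ : GL (Fin 3) F) : M3) *ᵥ w) = h₃ v w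
    have e : ∀ v, (B : M3) *ᵥ (((B⁻¹ : GL (Fin 3) F) : M3) *ᵥ v) = v := fun v => by
      rw [Matrix.mulVec_mulVec, Units.mul_inv, Matrix.one_mulVec]
    conv_rhs => rw [← e v, ← e w, hB, form_cols hF (frameMat_gram D)]
    rw [Units.val_mul, ← Matrix.mulVec_mulVec, ← Matrix.mulVec_mulVec, hC, form_cols hF hCgram]
  -- the model in matrices
  have hmodel : (Hm D).map (toG (F := F) (q := q)) = subfieldSubgroup F₀ B ⊓ G₁ := by
    have hiff : ∀ g : Cfsg.SU (2 + 1) F q,
        toG g ∈ subfieldSubgroup F₀ B ↔ g ∈ Hm D := by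
      intro g
      have hent : ∀ i j, ((B⁻¹ * toG g * B : GL (Fin 3) F) : M3) i j = co D (act g (bas D j)) i := by
        intro i j
        have h1 : ((B⁻¹ * toG g * B : GL (Fin 3) F) : M3) *ᵥ Pi.single j 1 = co D (act g (bas D j)) := by
          apply Matrix.mulVec_injective_of_isUnit (Units.isUnit B)
          show (B : M3) *ᵥ _ = (B : M3) *ᵥ _
          rw [Matrix.mulVec_mulVec, ← Units.val_mul, show B * (B⁻¹ * toG g * B) = toG g * B by group,
            Units.val_mul, ← Matrix.mulVec_mulVec, toG_mulVec, Matrix.mulVec_single_one, hB, frameMat_co,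
            frameMat_col]
        rw [← h1, Matrix.mulVec_single_one, Matrix.col_apply]
      rw [H98.subfieldSubgroup_eq_map, Subgroup.mem_map]
      constructor
      · rintro ⟨x, hx, hxe⟩
        obtain ⟨c, hc0, hcx⟩ := H98.mem_subGroupF.mp hx
        have hxe' : x = B⁻¹ * toG g * B := by
          rw [← hxe]; simp only [MulEquiv.coe_toMonoidHom, MulAut.conj_apply]; group
        refine ⟨c, hc0, fun j i => (hmem _).mp ?_⟩
        rw [co_smul, ← hent, ← hxe']
        exact hcx i j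
      · rintro ⟨c, hc0, hcx⟩
        refine ⟨B⁻¹ * toG g * B, H98.mem_subGroupF.mpr ⟨c, hc0, fun i j => ?_⟩,
          by simp only [MulEquiv.coe_toMonoidHom, MulAut.conj_apply]; group⟩
        rw [hent, ← co_smul]
        exact (hmem _).mpr (hcx j i)
    refine le_antisymm ?_ ?_
    · rintro _ ⟨g, hg, rfl⟩
      exact ⟨(hiff g).mpr hg, range_toG (F := F) (q := q) ▸ ⟨g, rfl⟩⟩
    · rintro x ⟨hx, hxG⟩
      obtain ⟨g, rfl⟩ : x ∈ (toG (F := F) (q := q)).range := by rw [range_toG]; exact hxG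
      exact ⟨g, (hiff g).mp hx, rfl⟩
  obtain ⟨hne, hmax⟩ := rat_maximal D h2 h7
  have hbase : IsMaximalIn G₁ (subfieldSubgroup F₀ B ⊓ G₁) := by
    rw [← hmodel]
    refine ⟨?_, fun M hHM hMK => ?_⟩
    · refine lt_of_le_not_ge (range_toG (F := F) (q := q) ▸ Subgroup.map_le_range _ _) fun hle => hne ?_
      rw [eq_top_iff]
      intro g _
      obtain ⟨g', hg', e⟩ := hle (show toG g ∈ _ from range_toG (F := F) (q := q) ▸ ⟨g, rfl⟩)
      rwa [← toG_injective e]
    · have hM : M = (M.comap (toG (F := F) (q := q))).map (toG (F := F) (q := q)) := by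
        rw [Subgroup.map_comap_eq_self]
        rw [range_toG]; exact hMK
      rcases hmax _ (Subgroup.map_le_iff_le_comap.mp hHM) with e | e
      · left; rw [hM, e]
      · right
        rw [hM, e, ← MonoidHom.range_eq_map]
        exact range_toG
  have hfin := H3.UMax.conj_maximal hF hbase (P := (C * B⁻¹)⁻¹) ((Cfsg.GU 3 F q).inv_mem hu)
  rw [inv_inv] at hfin
  have hmapG : (G₁).map (MulAut.conj (C * B⁻¹)).toMonoidHom = G₁ := by
    have hsu : ∀ Q ∈ Cfsg.GU 3 F q, ∀ g ∈ G₁, Q * g * Q⁻¹ ∈ G₁ := fun Q hQ g hg =>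
      ⟨(Cfsg.GU 3 F q).mul_mem ((Cfsg.GU 3 F q).mul_mem hQ hg.1) ((Cfsg.GU 3 F q).inv_mem hQ),
        MonoidHom.mem_ker.mpr (by
          rw [map_mul, map_mul, MonoidHom.mem_ker.mp hg.2, mul_one, map_inv, mul_inv_cancel])⟩
    refine le_antisymm ?_ fun g hg => ⟨(C * B⁻¹)⁻¹ * g * ((C * B⁻¹)⁻¹)⁻¹, hsu _ ((Cfsg.GU 3 F q).inv_mem hu) g hg, ?_⟩
    · rintro _ ⟨g, hg, rfl⟩
      exact hsu _ hu g hg
    · simp only [MulEquiv.coe_toMonoidHom, MulAut.conj_apply]; group
  have hconj : (subfieldSubgroup F₀ B).map (MulAut.conj (C * B⁻¹)).toMonoidHom = subfieldSubgroup F₀ C := by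
    rw [H98.subfieldSubgroup_eq_map, H98.subfieldSubgroup_eq_map, Subgroup.map_map]
    congr 1
    ext x
    simp [mul_assoc]
  rw [Subgroup.map_inf _ _ _ (MulAut.conj (C * B⁻¹)).injective, hconj, hmapG, ← hsub] at hfin
  exact hfin

end Cfsg.Agent.H1.SUThree.Orth
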