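import Cfsg.Agent.H1.SUThree.Top

/-!
The stabilisers of points in the three-dimensional special unitary group are maximal.
-/

set_option autoImplicit false
set_option linter.unusedSectionVars false

namespace Cfsg.Agent.H1.SUThree

open scoped Matrix
open Cfsg.Agent.H98 Cfsg.Agent.H98.Herm

variable {F : Type*} [Field F] [Fintype F] {q : ℕ} (hF : Fintype.card F = q ^ 2)

local notation "G₁" => Cfsg.GU 3 F q ⊓ Cfsg.Geo.specialLinear (Fin 3) F
local notation "h₃" => Cfsg.hermForm 3 F q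

lemma pull_one : pullForm 3 q (1 : GL (Fin 3) F) = Cfsg.hermForm 3 F q := by
  funext u v; simp [pullForm]

lemma isoSL_one : isoSL (pullForm 3 q (1 : GL (Fin 3) F)) = G₁ := by
  rw [pull_one]; rfl

include hF

/-- Three non-collinear full root groups for the standard form. -/
theorem top_std (hq : 3 ≤ q) {M : Subgroup (GL (Fin 3) F)} (hM : M ≤ G₁) {u v w : Fin 3 → F}
    (hu : u ∈ centres (isUnitary_std hF) M) (hv : v ∈ centres (isUnitary_std hF) M)
    (hw : w ∈ centres (isUnitary_std hF) M) (huv : h₃ u v ≠ 0)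
    (hind : ∀ k l : F, w ≠ k • u + l • v) : G₁ ≤ M := by
  have key : ∀ {x : Fin 3 → F}, x ∈ centres (isUnitary_std hF) M → x ∈ centres (isUnitary_pull hF (1 : GL (Fin 3) F)) M := by
    rintro x ⟨hx, hd⟩
    refine ⟨by rw [pull_one]; exact hx, fun d hdd => ?_⟩
    convert hd d hdd using 1
    refine gl_ext fun y => ?_
    rw [uT_mulVec, uT_mulVec, pull_one]
  have := top_of_three hF hq 1 (M := M) (by rw [isoSL_one]; exact hM) (key hu) (key hv) (key hw)
    (by rw [pull_one]; exact huv) hind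
  rw [this, isoSL_one]

/-- The stabiliser of an isotropic point is maximal. -/
theorem su_three_singular_maximal (hq : 3 ≤ q) (W : Submodule F (Fin 3 → F)) (hW0 : W ≠ ⊥)
    (hW : Cfsg.Geo.IsTotallySingularFor h₃ W) :
    Cfsg.Geo.IsMaximalIn G₁ (Cfsg.Geo.subspaceStabilizer W ⊓ G₁) := by
  classical
  set hf := isUnitary_std (n := 3) hF with hfdef
  obtain ⟨ζ, hζ0, hζ⟩ := exists_skew hf
  obtain ⟨e, he, he0⟩ := Submodule.exists_mem_ne_zero_of_ne_bot hW0
  have hee : h₃ e e = 0 := hW e he e he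
  have h1 : Module.finrank F W ≤ 1 := by
    have := ti_bound hf W hW
    rw [Fintype.card_fin] at this
    omega
  have hspan : ∀ a ∈ W, ∃ k : F, a = k • e := fun a ha => by
    have e1 : W = Submodule.span F {e} :=
      (Submodule.eq_of_le_of_finrank_le (Submodule.span_le.mpr (Set.singleton_subset_iff.mpr he))
        (by rw [finrank_span_singleton he0]; exact h1)).symm
    rw [e1] at ha
    obtain ⟨k, hk⟩ := Submodule.mem_span_singleton.mp ha
    exact ⟨k, hk.symm⟩
  have hperp : ∀ x, h₃ x x = 0 → h₃ x e = 0 → ∃ k : F, x = k • e := by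
    intro x hxx hxe
    by_contra hne
    push Not at hne
    have hex : h₃ e x = 0 := (eq_zero_comm hf).mp hxe
    have hti : ∀ a ∈ Submodule.span F ({e, x} : Set (Fin 3 → F)), ∀ b ∈ Submodule.span F ({e, x} : Set (Fin 3 → F)),
        h₃ a b = 0 := by
      intro a ha b hb
      obtain ⟨a1, a2, rfl⟩ := Submodule.mem_span_pair.mp ha
      obtain ⟨b1, b2, rfl⟩ := Submodule.mem_span_pair.mp hb
      simp [hf.add_left, add_right hf, hf.smul_left, smul_right hf, hee, hxx, hxe, hex]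
    have hind : LinearIndependent F ![e, x] :=
      LinearIndependent.pair_iff' he0 |>.mpr fun k hk => hne k hk.symm
    have h2 := ti_bound hf _ hti
    have h3 := finrank_span_eq_card hind
    rw [show Set.range ![e, x] = {e, x} from by simp [Set.pair_comm]] at h3
    rw [h3, Fintype.card_fin, Fintype.card_fin] at h2
    omega
  obtain ⟨x, hxe0⟩ := (hf.nondegenerate e he0).1
  obtain ⟨f₀, -, hf00, hef, -⟩ := partner_in hf (U := (⊤ : Submodule F (Fin 3 → F))) Submodule.mem_top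
    (y := x) Submodule.mem_top hee (fun h => hxe0 ((eq_zero_comm hf).mp h))
  refine isMaximalIn_of inf_le_right ?_ fun M hHM hMK g hg hgH => ?_
  · refine ⟨uT hf hf00 ζ, uT_mem_su hF hf00 hζ, fun hmem => ?_⟩
    have h1' := (mem_subspaceStabilizer.mp hmem.1 e).mp he
    rw [uT_mulVec, hef, mul_one] at h1'
    obtain ⟨k, hk⟩ := hspan _ h1'
    have h2 := congrArg (fun z => h₃ z e) hk
    simp only [hf.add_left, hf.smul_left, hee, mul_zero, zero_add] at h2
    have hfe : h₃ f₀ e ≠ 0 := fun h => one_ne_zero (α := F) (hef.symm.trans ((eq_zero_comm hf).mp h))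
    exact mul_ne_zero hζ0 hfe h2
  have hiso : ∀ k ∈ M, ∀ a b, h₃ ((k : Matrix (Fin 3) (Fin 3) F) *ᵥ a) ((k : Matrix (Fin 3) (Fin 3) F) *ᵥ b) =
      h₃ a b := fun k hk => (hMK hk).1
  have hHmem : ∀ k ∈ G₁, (∃ c : F, (k : Matrix (Fin 3) (Fin 3) F) *ᵥ e = c • e) → k ∈ M := by
    rintro k hk ⟨c, hc⟩
    refine hHM ⟨stab_of_maps_into fun a ha => ?_, hk⟩
    obtain ⟨j, rfl⟩ := hspan a ha
    rw [Matrix.mulVec_smul, hc]
    exact W.smul_mem _ (W.smul_mem _ he)
  have heC : e ∈ centres hf M := ⟨hee, fun d hd => hHmem _ (uT_mem_su hF hee hd)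
    ⟨1, by rw [uT_mulVec, hee, mul_zero, zero_smul, add_zero, one_smul]⟩⟩
  set v := (g : Matrix (Fin 3) (Fin 3) F) *ᵥ e with hv
  have hvC : v ∈ centres hf M := centres_conj hf hiso hg heC
  have hvv : h₃ v v = 0 := hvC.1
  have hve : h₃ v e ≠ 0 := fun h => by
    obtain ⟨k, hk⟩ := hperp v hvv h
    refine hgH ⟨stab_of_maps_into fun a ha => ?_, hMK hg⟩
    obtain ⟨j, rfl⟩ := hspan a ha
    rw [Matrix.mulVec_smul, ← hv, hk]
    exact W.smul_mem _ (W.smul_mem _ he)
  obtain ⟨c, a, hc, hp⟩ := exists_pair hf hee hvv (fun h => hve ((eq_zero_comm hf).mp h))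
  have hae : h₃ a e = 0 := hp.au hf
  obtain ⟨γ, hγ⟩ := exists_trace hf (a := - h₃ a a) (by rw [map_neg, sigma_apply hf])
  have hγ' : γ + frobQ hF γ + h₃ a a = 0 := by rw [hγ, neg_add_cancel]
  have hEM : eich hf hee hae γ ∈ M := by
    refine hHmem _ ⟨fun p r => eich_iso hf hee hae hγ' p r, eich_mem_sl hf hee hae γ⟩ ⟨1, ?_⟩
    rw [eich_mulVec, (eq_zero_comm hf).mp hae, hee, zero_smul, zero_smul, sub_zero, add_zero, one_smul]
  have hwC := centres_conj hf hiso hEM hvC
  refine top_std hF hq hMK heC hvC hwC (fun h => hve ((eq_zero_comm hf).mp h)) fun k l hkl => ?_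
  have hva : h₃ v a = 0 := by
    have := hp.va
    rwa [hf.smul_left, mul_eq_zero, or_iff_right hc] at this
  have h2 := congrArg (fun z => h₃ z a) hkl
  rw [eich_mulVec] at h2
  simp only [sub_left hf, hf.add_left, hf.smul_left, hp.ua, hva, mul_zero, add_zero, sub_zero] at h2
  rcases mul_eq_zero.mp (show h₃ v e * h₃ a a = 0 by simpa using h2) with h | h
  exacts [hve h, hp.aa hf h]

/-- The stabiliser of a non-degenerate point is maximal. -/
theorem su_three_point_maximal (hq : 3 ≤ q) (W : Submodule F (Fin 3 → F)) (hW0 : W ≠ ⊥)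
    (hW : Cfsg.Geo.IsNondegenerateOn h₃ W) (hd : 2 * Module.finrank F W < 3) :
    Cfsg.Geo.IsMaximalIn G₁ (Cfsg.Geo.subspaceStabilizer W ⊓ G₁) := by
  classical
  set hf := isUnitary_std (n := 3) hF with hfdef
  obtain ⟨ζ, hζ0, hζ⟩ := exists_skew hf
  have hW' : ∀ x ∈ W, x ∈ perp hf W → x = 0 := fun x hx hxp => by
    by_contra hne
    obtain ⟨-, y, hy, hxy⟩ := hW x hx hne
    exact hxy ((mem_perpW hf).mp hxp y hy)
  have hW1 : Module.finrank F W = 1 := by
    have : Module.finrank F W ≠ 0 := fun h => hW0 (Submodule.finrank_eq_zero.mp h)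
    omega
  set P := perp hf W with hPdef
  have hP : ∀ x ∈ P, x ∈ perp hf P → x = 0 := fun x hx hx' => by
    rw [hPdef, perp_perp hf] at hx'; exact hW' x hx' hx
  have hdimP : 2 ≤ Module.finrank F P := by
    have h1 := finrank_perpW hf W
    rw [Fintype.card_fin, hW1, ← hPdef] at h1
    omega
  obtain ⟨w, hw, hw0⟩ := Submodule.exists_mem_ne_zero_of_ne_bot hW0
  have hww : h₃ w w ≠ 0 := fun h0 => hw0 (hW' w hw ((mem_perpW hf).mpr fun y hy => by
    have e : W = Submodule.span F {w} :=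
      (Submodule.eq_of_le_of_finrank_le (Submodule.span_le.mpr (Set.singleton_subset_iff.mpr hw))
        (by rw [finrank_span_singleton hw0, hW1])).symm
    rw [e] at hy
    obtain ⟨k, rfl⟩ := Submodule.mem_span_singleton.mp hy
    rw [smul_right hf, h0, mul_zero]))
  obtain ⟨e, he, e', he', ee, e'e', e1, e2⟩ := exists_pair_nondeg hf hP hdimP
  have horth : ∀ b ∈ P, h₃ b w = 0 ∧ h₃ w b = 0 := fun b hb =>
    ⟨(mem_perpW hf).mp hb w hw, (eq_zero_comm hf).mp ((mem_perpW hf).mp hb w hw)⟩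
  refine isMaximalIn_of inf_le_right ?_ fun M hHM hMK g hg hgH => ?_
  · obtain ⟨μ, hμ⟩ := exists_trace hf (a := - h₃ w w) (by rw [map_neg, sigma_apply hf])
    set b := e + μ • e' with hb
    have hbP : b ∈ P := P.add_mem he (P.smul_mem _ he')
    have hvv : h₃ (w + b) (w + b) = 0 := by
      have hsplit : ∀ x ∈ P, h₃ (w + x) (w + x) = h₃ w w + h₃ x x := fun x hx => by
        rw [hf.add_left, add_right hf, add_right hf, (horth x hx).1, (horth x hx).2, add_zero, zero_add]
      rw [hsplit b hbP, hb, hf.add_left, add_right hf,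
        add_right hf, hf.smul_left, hf.smul_left, smul_right hf, smul_right hf, ee, e'e', e1, e2]
      linear_combination hμ
    refine ⟨uT hf hvv ζ, uT_mem_su hF hvv hζ, fun hmem => ?_⟩
    have h1 := (mem_subspaceStabilizer.mp hmem.1 w).mp hw
    rw [uT_mulVec, add_right hf, (horth b hbP).2, add_zero] at h1
    have h2 := W.smul_mem (ζ * h₃ w w)⁻¹ (W.sub_mem h1 hw)
    rw [add_sub_cancel_left, smul_smul, inv_mul_cancel₀ (mul_ne_zero hζ0 hww), one_smul] at h2
    have h3 : b ∈ W := by simpa using W.sub_mem h2 hw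
    have h4 : h₃ e' b = 0 := (mem_perpW hf).mp he' b h3
    rw [hb, add_right hf, smul_right hf, e'e', mul_zero, add_zero, e2] at h4
    exact one_ne_zero h4
  have hiso : ∀ k ∈ M, ∀ a b, h₃ ((k : Matrix (Fin 3) (Fin 3) F) *ᵥ a) ((k : Matrix (Fin 3) (Fin 3) F) *ᵥ b) =
      h₃ a b := fun k hk => (hMK hk).1
  have hCP : ∀ v ∈ P, h₃ v v = 0 → v ∈ centres hf M := fun v hv hvv =>
    ⟨hvv, fun d hd => hHM ⟨uT_stab hf hvv (Or.inr hv) d, uT_mem_su hF hvv hd⟩⟩
  obtain ⟨r, hrC, hrP⟩ : ∃ r ∈ centres hf M, r ∉ P := by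
    by_contra hc
    push Not at hc
    have hle : P ≤ P.comap (Matrix.mulVecLin (g : Matrix (Fin 3) (Fin 3) F)) :=
      le_of_isotropic hf he he' ee e'e' e1 e2
        fun v hv hvv => hc _ (centres_conj hf hiso hg (hCP v hv hvv))
    refine hgH ⟨stab_of_maps_into fun a ha => ?_, hMK hg⟩
    rw [← perp_perp hf W, mem_perpW hf]
    intro x hx
    have hx' : ((g⁻¹ : GL (Fin 3) F) : Matrix (Fin 3) (Fin 3) F) *ᵥ x ∈ P :=
      ((mem_subspaceStabilizer.mp (stab_of_maps_into (W := P) hle)) _).mpr (by rwa [gl_mulVec_inv])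
    rw [← gl_mulVec_inv g x, hiso g hg]
    exact (eq_zero_comm hf).mp ((mem_perpW hf).mp hx' a ha)
  refine top_std hF hq hMK (hCP e he ee) (hCP e' he' e'e') hrC (by rw [e1]; exact one_ne_zero) fun k l hkl => hrP ?_
  rw [hkl]
  exact P.add_mem (P.smul_mem _ he) (P.smul_mem _ he')

end Cfsg.Agent.H1.SUThree
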