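import Cfsg.Agent.H1.SUThree.RatOrbit

/-!
The orbit of the base point under an overgroup of the rational model.
-/

set_option autoImplicit false
set_option linter.unusedSectionVars false

namespace Cfsg.Agent.H1.SUThree.Orth

open Matrix MulAction Cfsg.Agent.H2.MinU Cfsg.Agent.H2.MinU.S3

/-- Point stabilisers dividing `s` give a divisibility for the size of the set. -/
theorem card_dvd_of_stab {P Y : Type*} [Group P] [Finite P] [MulAction P Y] [Finite Y] (s : ℕ)
    (h : ∀ y : Y, Nat.card (stabilizer P y) ∣ s) : Nat.card P ∣ Nat.card Y * s := by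
  classical
  haveI : Fintype Y := Fintype.ofFinite Y
  haveI : Fintype (Quotient (orbitRel P Y)) := Fintype.ofFinite _
  rw [Nat.card_congr (selfEquivSigmaOrbits P Y), Nat.card_sigma, Finset.sum_mul]
  refine Finset.dvd_sum fun ω _ => ?_
  have h1 : Nat.card (orbit P ω.out) * Nat.card (stabilizer P ω.out) = Nat.card P := by
    rw [← Nat.card_prod]
    exact Nat.card_congr (MulAction.orbitProdStabilizerEquivGroup P ω.out)
  rw [← h1]
  exact Nat.mul_dvd_mul_left _ (h _)

/-- The possible indices. -/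
theorem index_cases {q k : ℕ} (hq : 2 ≤ q) (hk : q ∣ k - 1) (hd : k ∣ q ^ 3 + 1) (hle : k * (q + 1) ≤ q ^ 3 + 1) :
    k = 1 ∨ k = q + 1 ∨ k = q * (q - 1) + 1 := by
  obtain ⟨a, ha⟩ := hk
  obtain ⟨b', hb'⟩ := hd
  have hk0 : k ≠ 0 := fun h => by rw [h, zero_mul] at hb'; omega
  have hka : k = q * a + 1 := by omega
  rcases Nat.eq_zero_or_pos a with rfl | ha0
  · left; omega
  -- the cofactor is also congruent to one
  have hb0 : b' ≠ 0 := fun h => by rw [h, mul_zero] at hb'; omega
  obtain ⟨b, hb⟩ : ∃ b, b' = q * b + 1 := by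
    have h1 : (q * a + 1) * b' = q ^ 3 + 1 := by rw [← hka, ← hb']
    have h2 : q ∣ b' - 1 := by
      have h3 : b' % q = 1 % q := by
        have h4 : ((q * a + 1) * b') % q = (q ^ 3 + 1) % q := by rw [h1]
        rw [Nat.add_mod (q ^ 3) 1, Nat.pow_mod, Nat.mod_self] at h4
        rw [Nat.mul_mod, Nat.add_mod, Nat.mul_mod_right] at h4
        simpa [Nat.zero_pow] using h4
      exact (Nat.modEq_iff_dvd' (Nat.one_le_iff_ne_zero.mpr hb0)).mp h3.symm
    obtain ⟨b, hb⟩ := h2
    exact ⟨b, by omega⟩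
  subst hka hb
  have key : a + b + a * b * q = q ^ 2 := by
    refine Nat.eq_of_mul_eq_mul_left (show 0 < q by omega) ?_
    have : q ^ 3 + 1 = (q * a + 1) * (q * b + 1) := hb'
    nlinarith
  have hb1 : 0 < b := by
    by_contra hb'0
    obtain rfl : b = 0 := by omega
    rw [mul_zero, zero_add, mul_one] at hb'
    rw [← hb'] at hle
    nlinarith
  obtain ⟨c, hc⟩ : q ∣ a + b := (Nat.dvd_add_left (dvd_mul_left q (a * b))).mp (key ▸ dvd_pow_self q two_ne_zero)
  have h1 : c + a * b = q := by
    refine Nat.eq_of_mul_eq_mul_left (show 0 < q by omega) ?_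
    rw [Nat.mul_add, ← hc, ← pow_two]
    linarith
  have hc0 : 0 < c := by
    by_contra h
    obtain rfl : c = 0 := by omega
    rw [mul_zero] at hc; omega
  have hab : a + b ≤ a * b + 1 := by
    have : (a - 1) * (b - 1) + (a + b) = a * b + 1 := by
      obtain ⟨a', rfl⟩ : ∃ a', a = a' + 1 := ⟨a - 1, by omega⟩
      obtain ⟨b'', rfl⟩ : ∃ b'', b = b'' + 1 := ⟨b - 1, by omega⟩
      simp only [Nat.add_sub_cancel]
      ring
    omega
  have hc1 : c = 1 := by
    rcases Nat.lt_or_ge c 2 with h | h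
    · omega
    · have : q * 2 ≤ q * c := Nat.mul_le_mul_left q h
      omega
  subst hc1
  rw [mul_one] at hc
  have h3 : (a - 1) * (b - 1) = 0 := by
    obtain ⟨a', rfl⟩ : ∃ a', a = a' + 1 := ⟨a - 1, by omega⟩
    obtain ⟨b'', rfl⟩ : ∃ b'', b = b'' + 1 := ⟨b - 1, by omega⟩
    simp only [Nat.add_sub_cancel]
    nlinarith
  rcases Nat.mul_eq_zero.mp h3 with h | h
  · right; left
    obtain rfl : a = 1 := by omega
    omega
  · right; right
    obtain rfl : b = 1 := by omega
    congr 2
    omega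

variable {F : Type*} [Field F] [Fintype F] {q : ℕ}

local notation "G" => Cfsg.SU (2 + 1) F q

variable (D : Dat F q) (h2 : (2 : F) ≠ 0)

/-- Elements moving the base point to the same place differ by the stabiliser. -/
lemma eq_point {g g' : G} {s : F} (hs : s ≠ 0) (h : act g (D.p 1) = s • act g' (D.p 1)) : g • x0 D = g' • x0 D := by
  rw [smul_x0, smul_x0, QuotientGroup.eq]
  refine ⟨s⁻¹, inv_ne_zero hs, act_injective g ?_⟩
  rw [act_mul, act_act_inv, act_smul, h, smul_smul, inv_mul_cancel₀ hs, one_smul]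

/-- The element carrying the base point to the opposite one. -/
noncomputable def w0 : G := Rx D 2 * Ex D 1

include h2

lemma w0_mem : w0 D ∈ Hm D :=
  (Hm D).mul_mem (Rx_mem D h2 (two_fix D)).1 (Ex_mem D h2 (one_pow q))

lemma act_w0 : act (w0 D) (D.p 1) = (-1 / 2 : F) • D.p' 1 := by
  obtain ⟨r0, r1, r2⟩ := Rx_act D h2 (two_fix D)
  rw [w0, act_mul, (Ex_act D h2 (one_pow q)).1, act_add, act_add, act_smul, act_smul, r0, r1, r2]
  simp only [half]
  match_scalars <;> field_simp <;> ring

/-- The rational points. -/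
theorem orbit_Hm : orbit (Hm D) (x0 D) =
    insert (x0 D) (Set.range fun x : {x : F // x ^ q = x} => Rx D x.1 • (w0 D • x0 D)) := by
  have hne : (-1 / 2 : F) ≠ 0 := div_ne_zero (neg_ne_zero.mpr one_ne_zero) h2
  refine Set.Subset.antisymm ?_ ?_
  · rintro _ ⟨⟨g, hg⟩, rfl⟩
    show g • x0 D ∈ _
    obtain ⟨c, hc, hg'⟩ := hg
    have hr : IsRat D (c • act g (D.p 1)) := hg' 0
    obtain ⟨v, hv⟩ : ∃ v, v = c • act g (D.p 1) := ⟨_, rfl⟩
    rw [← hv] at hr
    have hiso : Cfsg.hermForm (2 + 1) F q v v = 0 := by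
      rw [hv, hsmul_l D.hF, hsmul_r D.hF, form_act, D.p_iso, mul_zero, mul_zero]
    by_cases he : co D v 2 = 0
    · left
      rw [← one_smul G (x0 D)]
      have h1 := iso_orth D hiso (by simpa [co] using he)
      have hne0 : Cfsg.hermForm (2 + 1) F q v (D.p' 1) ≠ 0 := fun e => by
        rw [e, zero_smul] at h1
        exact smul_ne_zero hc (act_ne_zero g D.p_ne) (hv ▸ h1)
      rw [one_smul]
      calc g • x0 D = (1 : G) • x0 D := eq_point D (s := c⁻¹ * Cfsg.hermForm (2 + 1) F q v (D.p' 1))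
            (mul_ne_zero (inv_ne_zero hc) hne0) (by
              rw [act_one, mul_smul, ← h1, hv, smul_smul, inv_mul_cancel₀ hc, one_smul])
        _ = x0 D := one_smul _ _
    · right
      set a := co D v 0 with ha'
      set b := co D v 1 with hb'
      set e := co D v 2 with he'
      have hx : (b / e) ^ q = b / e := by rw [div_pow, hr 1, hr 2]
      refine ⟨⟨b / e, hx⟩, ?_⟩
      show Rx D (b / e) • w0 D • x0 D = g • x0 D
      rw [smul_smul]
      symm
      have hform : 2 * (a * e) + b * b = 0 := by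
        have h1 := hiso
        rw [decomp_co D v] at h1
        simp only [hadd_l D.hF, hadd_r D.hF, hsmul_l D.hF, hsmul_r D.hF, D.p_iso, D.p'_iso, D.p_p', D.p'_p,
          p_u1 D, p'_u1 D, u1_p D, u1_p' D, u1_u1 D, hr 0, hr 1, hr 2] at h1
        linear_combination h1
      refine eq_point D (s := c⁻¹ * e * (-1 / 2 : F)⁻¹)
        (mul_ne_zero (mul_ne_zero (inv_ne_zero hc) he) (inv_ne_zero hne)) ?_
      rw [act_mul, act_w0 D h2, act_smul, (Rx_act D h2 hx).2.2, smul_smul, inv_mul_cancel_right₀ hne]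
      apply smul_right_injective _ hc
      show c • act g (D.p 1) = c • _
      rw [← hv, smul_smul, ← mul_assoc, mul_inv_cancel₀ hc, one_mul]
      conv_lhs => rw [decomp_co D v]
      rw [← ha', ← hb', ← he', half]
      match_scalars
      · field_simp
        linear_combination hform
      · field_simp
      · field_simp
  · rintro _ (rfl | ⟨x, rfl⟩)
    · exact mem_orbit_self _
    · refine ⟨⟨Rx D x.1 * w0 D, (Hm D).mul_mem (Rx_mem D h2 x.2).1 (w0_mem D h2)⟩, ?_⟩
      show (Rx D x.1 * w0 D) • x0 D = _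
      rw [mul_smul]

lemma w0_ne : w0 D • x0 D ≠ x0 D := fun h => by
  have hm := (fix_x0 D).mp h
  obtain ⟨c, hc0, hc⟩ := hm
  rw [act_w0 D h2] at hc
  have := congrArg (fun v => co D v 2) hc
  simp only [co_smul] at this
  simp only [co, Matrix.cons_val, D.p_iso, D.p'_p, mul_one, mul_zero] at this
  exact div_ne_zero (neg_ne_zero.mpr one_ne_zero) h2 this

lemma Rx_inj {x y : F} (hx : x ^ q = x) (hy : y ^ q = y) (h : Rx D x = Rx D y) : x = y :=
  congrFun (El_inj (okW_R D h2 hx) (okW_R D h2 hy) h).1 0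

lemma Rx_mul {x y : F} (hx : x ^ q = x) (hy : y ^ q = y) : Rx D x * Rx D y = Rx D (x + y) := by
  rw [Rx, Rx, Rx, El_mul (okW_R D h2 hx) (okW_R D h2 hy), form1]
  congr 1
  rw [hx, half, half, half]
  field_simp
  ring

lemma Rx_zero : Rx D (0 : F) = 1 := by
  rw [Rx, half, mul_zero, neg_zero, zero_div]
  exact El_zero

/-- The rational points number `q + 1`. -/
theorem card_orbit_Hm : Nat.card (orbit (Hm D) (x0 D)) = q + 1 := by
  classical
  have hinj : Function.Injective fun x : {x : F // x ^ q = x} => Rx D x.1 • (w0 D • x0 D) := by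
    intro x y h
    by_contra hne
    have hxy : (-y.1 + x.1) ^ q = -y.1 + x.1 := by rw [qadd D.hF, qneg D.hF, x.2, y.2]
    have h1 : Rx D (-y.1 + x.1) • (w0 D • x0 D) = w0 D • x0 D := by
      rw [← Rx_mul D h2 (by rw [qneg D.hF, y.2]) x.2, mul_smul]
      simp only at h
      rw [h, smul_smul, Rx_mul D h2 (by rw [qneg D.hF, y.2]) y.2, neg_add_cancel, Rx_zero D h2, one_smul]
    refine w0_ne D h2 (Q_fix D (Rx_mem D h2 hxy).2 (fun e => hne (Subtype.ext ?_)) h1)
    rw [← Rx_zero D h2] at e
    have := Rx_inj D h2 hxy (zero_pow (q_ne_zero D.hF)) e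
    linear_combination this
  have hnot : x0 D ∉ Set.range fun x : {x : F // x ^ q = x} => Rx D x.1 • (w0 D • x0 D) := by
    rintro ⟨x, hx⟩
    simp only at hx
    refine w0_ne D h2 (smul_left_cancel (Rx D x.1) (hx.trans ?_))
    exact ((fix_x0 D).mpr (Qg_le_pst D (Rx_mem D h2 x.2).2)).symm
  rw [orbit_Hm D h2, Nat.card_coe_set_eq, Set.ncard_insert_of_notMem hnot, Set.ncard_range_of_injective hinj,
    H3.card_fixed D.hF]

variable {M : Subgroup (Cfsg.SU (2 + 1) F q)} (hM : Hm D ≤ M) (hZ : Zs D M = ⊥)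

/-- The order of a subgroup as orbit times stabiliser. -/
lemma card_eq_orbit (L : Subgroup G) :
    Nat.card L = Nat.card (orbit L (x0 D)) * Nat.card (L.subgroupOf (pst D 1)) := by
  have h1 : Nat.card (orbit L (x0 D)) * Nat.card (stabilizer L (x0 D)) = Nat.card L := by
    rw [← Nat.card_prod]
    exact Nat.card_congr (MulAction.orbitProdStabilizerEquivGroup L (x0 D))
  rw [← h1]
  congr 1
  exact Nat.card_congr
    { toFun := fun g => ⟨⟨g.1.1, (fix_x0 D).mp g.2⟩, g.1.2⟩
      invFun := fun g => ⟨⟨g.1.1, g.2⟩, (fix_x0 D).mpr g.1.2⟩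
      left_inv := fun g => rfl
      right_inv := fun g => rfl }

include hM hZ

lemma stab_eq : Nat.card ((Hm D).subgroupOf (pst D 1)) = q * ((q - 1) * Nat.gcd (q + 1) 3) := by
  rw [← card_pst D h2 hM hZ]
  congr 2
  ext g
  rw [Subgroup.mem_subgroupOf, Subgroup.mem_subgroupOf]
  exact ⟨fun h => hM h, fun h => stab_rat D h2 hM hZ h g.2⟩

set_option maxHeartbeats 800000 in
/-- The rational radical and torus move the other points of the orbit semiregularly up to two. -/
theorem orbit_dvd : q * (q - 1) ∣ 2 * (Nat.card (orbit M (x0 D)) - (q + 1)) := by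
  classical
  have hq := H3.two_le_q D.hF
  -- the acting group
  let P : Subgroup (pst D 1) := M.subgroupOf (pst D 1) ⊓ (K0 q F).comap (χ D)
  have hPH : ∀ g : P, g.1.1 ∈ Hm D := fun g => stab_rat D h2 hM hZ g.2.1 g.1.2
  have hcardP : Nat.card P = q * (q - 1) := by
    set f := (χ D).comp P.subtype
    have h := f.ker.card_mul_index
    rw [Subgroup.index_ker, MonoidHom.range_comp, Subgroup.range_subtype] at h
    rw [← h]
    congr 1
    · refine Eq.trans ?_ (H3.card_fixed D.hF)
      refine (Nat.card_eq_of_bijective (fun x : {x : F // x ^ q = x} => (⟨⟨⟨Rx D x.1,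
          Qg_le_pst D (Rx_mem D h2 x.2).2⟩, hM (Rx_mem D h2 x.2).1, by
            show χ D ⟨Rx D x.1, _⟩ ∈ K0 q F
            rw [(χ_ker D _).mpr (Rx_mem D h2 x.2).2]; exact one_mem _⟩,
          (χ_ker D _).mpr (Rx_mem D h2 x.2).2⟩ : f.ker)) ⟨?_, ?_⟩).symm
      · intro x y h
        exact Subtype.ext (Rx_inj D h2 x.2 y.2 (congrArg (fun g : f.ker => g.1.1.1) h))
      · rintro ⟨g, hg⟩
        obtain ⟨x, hx, e⟩ := radical_rat D h2 hM hZ g.2.1 ((χ_ker D _).mp hg)
        exact ⟨⟨x, hx⟩, Subtype.ext (Subtype.ext (Subtype.ext e.symm))⟩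
    · rw [show P.map (χ D) = K0 q F from le_antisymm (by rintro _ ⟨g, hg, rfl⟩; exact hg.2) fun c hc => by
        obtain ⟨l, hl, hlc, -⟩ := exists_lev_rat D (c := c) (by
          have := hc
          rw [K0, MonoidHom.mem_ker, powMonoidHom_apply] at this
          rw [this, one_pow])
        exact ⟨l, ⟨hM hl, show χ D l ∈ _ by rw [hlc]; exact hc⟩, hlc⟩]
      rw [K0, IsCyclic.card_powMonoidHom_ker, Nat.card_units, Nat.card_eq_fintype_card, D.hF,
        show q ^ 2 - 1 = (q + 1) * (q - 1) by rw [← Nat.sq_sub_sq, one_pow]]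
      exact Nat.gcd_eq_right (dvd_mul_left _ _)
  -- the set moved
  let Y := {y : X D // y ∈ orbit M (x0 D) ∧ y ∉ orbit (Hm D) (x0 D)}
  letI : MulAction P Y :=
    { smul := fun g y => ⟨g.1.1 • y.1, by
        obtain ⟨m, hm⟩ := y.2.1
        exact ⟨⟨g.1.1 * m.1, M.mul_mem g.2.1 m.2⟩, by
          show (g.1.1 * m.1) • x0 D = g.1.1 • y.1
          rw [mul_smul]
          exact congrArg _ hm⟩,
        fun h => y.2.2 (by
          obtain ⟨k, hk⟩ := h
          refine ⟨⟨g.1.1⁻¹ * k.1, (Hm D).mul_mem ((Hm D).inv_mem (hPH g)) k.2⟩, ?_⟩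
          show (g.1.1⁻¹ * k.1) • x0 D = y.1
          have hk' : k.1 • x0 D = g.1.1 • y.1 := hk
          rw [mul_smul, hk', inv_smul_smul])⟩
      one_smul := fun y => Subtype.ext (one_smul G y.1)
      mul_smul := fun g h y => Subtype.ext (mul_smul g.1.1 h.1.1 y.1) }
  have hY : Nat.card Y + (q + 1) = Nat.card (orbit M (x0 D)) := by
    rw [← card_orbit_Hm D h2, Nat.card_coe_set_eq, Nat.card_coe_set_eq]
    show Nat.card ({y | y ∈ orbit M (x0 D) ∧ y ∉ orbit (Hm D) (x0 D)} : Set (X D)) + _ = _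
    rw [Nat.card_coe_set_eq]
    refine Set.ncard_sdiff_add_ncard_of_subset ?_
    rintro _ ⟨k, rfl⟩
    exact ⟨⟨k.1, hM k.2⟩, rfl⟩
  have hdvd := card_dvd_of_stab (P := P) (Y := Y) 2 fun y => by
    set S := stabilizer P y
    have hfix : ∀ g : S, g.1.1.1 • y.1 = y.1 := fun g => congrArg Subtype.val g.2
    have hker : Nat.card (powMonoidHom 2 : Fˣ →* Fˣ).ker = 2 := by
      rw [IsCyclic.card_powMonoidHom_ker, Nat.card_units, Nat.card_eq_fintype_card, D.hF]
      refine Nat.gcd_eq_right ?_
      have hodd : ¬ 2 ∣ q := by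
        intro hd
        obtain ⟨p, j, hp, hc, -, hpq⟩ := H3.exists_q_eq_pow D.hF
        haveI := Fact.mk hp
        have hp2 : p = 2 :=
          ((Nat.prime_dvd_prime_iff_eq Nat.prime_two hp).mp (Nat.prime_two.dvd_of_dvd_pow (hpq ▸ hd))).symm
        subst hp2
        exact h2 (CharP.ofNat_eq_zero' F 2 2 dvd_rfl)
      rw [show q ^ 2 - 1 = (q + 1) * (q - 1) by rw [← Nat.sq_sub_sq, one_pow]]
      exact Dvd.dvd.mul_right (by omega) _
    have hsq : ∀ g : S, χ D g.1.1 ^ 2 = 1 := by
      intro g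
      by_contra hc2
      set c : Fˣ := χ D g.1.1 with hc
      have hcK : c ∈ K0 q F := g.1.2.2
      have hcq : (c : F) ^ q = c := (mem_K0 D).mp hcK
      obtain ⟨l, hl, hlc, hlu, hlp'⟩ := exists_lev_rat D (c := c) (by
        have := hcK
        rw [K0, MonoidHom.mem_ker, powMonoidHom_apply] at this
        rw [this, one_pow])
      have hc1 : c ^ (q - 1) = 1 := by
        have := hcK
        rwa [K0, MonoidHom.mem_ker, powMonoidHom_apply] at this
      have hlu' : act l.1 (u1 : Fin (2 + 1) → F) = u1 := by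
        rw [hlu, ← Units.val_pow_eq_pow_val, hc1, Units.val_one, one_smul]
      have hlp : act l.1 (D.p 1) = (c : F) • D.p 1 := by rw [act_p_χ D l, hlc]
      rw [hcq] at hlp'
      obtain ⟨x, hx, e⟩ := radical_rat D h2 hM hZ (M.mul_mem g.1.2.1 (M.inv_mem (hM hl))) (by
        have e : χ D (g.1.1 * l⁻¹) = 1 := by rw [map_mul, map_inv, hlc, mul_inv_cancel]
        exact (χ_ker D _).mp e)
      have hg : g.1.1.1 = Rx D x * l.1 := by
        rw [← mul_inv_eq_iff_eq_mul]
        exact e
      have hcne : (1 : F) - c ≠ 0 := by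
        rw [sub_ne_zero]
        intro h
        exact hc2 (by rw [show c = 1 from Units.ext h.symm, one_pow])
      set x' : F := x / (1 - c) with hx'
      have hx'q : x' ^ q = x' := by rw [hx', div_pow, qsub D.hF, one_pow, hcq, hx]
      have hcx : ((c : F) * x') ^ q = (c : F) * x' := by rw [mul_pow, hcq, hx'q]
      -- commuting the torus past the radical
      have hcomm : l.1 * Rx D x' = Rx D ((c : F) * x') * l.1 := by
        rw [← mul_inv_eq_iff_eq_mul, Rx, El, E_conj D.hF _ (ok_of (okW_R D h2 hx'q) D), hlp, up_const, act_smul,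
          hlu']
        have hok : Ok q ((c : F) • D.p 1) (x' • (u1 : Fin (2 + 1) → F)) (half x') := by
          have := ok_act l.1 (ok_of (okW_R D h2 hx'q) D)
          rwa [hlp, up_const, act_smul, hlu'] at this
        rw [E_smul D.hF c.ne_zero hok, hcq, smul_smul, Rx, El, up_const]
        congr 1
        rw [half, half]
        ring
      have hgy : (Rx D x * l.1) • y.1 = y.1 := hg ▸ hfix g
      set z : X D := (Rx D x')⁻¹ • y.1 with hz
      have hlz : l.1 • z = z := by
        have e1 : Rx D x' * l.1 = Rx D x * l.1 * Rx D x' := by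
          rw [mul_assoc, hcomm, ← mul_assoc, Rx_mul D h2 hx hcx]
          congr 2
          rw [hx']
          field_simp
          ring
        have hy : y.1 = Rx D x' • z := by rw [hz, smul_inv_smul]
        rw [hy, smul_smul, ← e1, mul_smul] at hgy
        exact smul_left_cancel _ hgy
      refine y.2.2 ?_
      have hy : y.1 = Rx D x' • z := by rw [hz, smul_inv_smul]
      suffices hzO : z ∈ orbit (Hm D) (x0 D) by
        obtain ⟨k, hk⟩ := hzO
        refine ⟨⟨Rx D x' * k.1, (Hm D).mul_mem (Rx_mem D h2 hx'q).1 k.2⟩, ?_⟩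
        show (Rx D x' * k.1) • x0 D = y.1
        rw [mul_smul, hy]
        congr 1
      obtain ⟨r, hr⟩ := eigen_of_fix D hlz
      have hviso := vec_iso D z
      have hvne := vec_ne D z
      obtain ⟨v, hv⟩ : ∃ v, v = vec D z := ⟨_, rfl⟩
      rw [← hv] at hr hviso hvne
      rw [decomp_co D v, act_add, act_add, act_smul, act_smul, act_smul, hlp, hlu', hlp', smul_smul, smul_smul,
        smul_add, smul_add, smul_smul, smul_smul, smul_smul] at hr
      have h0 := congrArg (fun w => co D w 0) hr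
      have h1 := congrArg (fun w => co D w 1) hr
      have h3 := congrArg (fun w => co D w 2) hr
      simp only [co_comb, Matrix.cons_val_zero, Matrix.cons_val_one, Matrix.cons_val] at h0 h1 h3
      by_cases he : co D v 2 = 0
      · rw [show z = x0 D from ?_]
        · exact mem_orbit_self _
        have hv2 := iso_orth D hviso (by simpa [co] using he)
        obtain ⟨a, ha, e0⟩ := vec_x0 D
        refine vec_inj D (c := Cfsg.hermForm (2 + 1) F q v (D.p' 1) / a) ?_
        rw [← hv, e0, smul_smul, div_mul_cancel₀ _ ha]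
        exact hv2
      · have hr' : r = (c : F)⁻¹ := by
          refine mul_right_cancel₀ he ?_
          linear_combination -h3
        have hc0 : (c : F) ≠ 0 := c.ne_zero
        have hb : co D v 1 = 0 := by
          by_contra hb
          rw [hr'] at h1
          exact hcne (sub_eq_zero.mpr (inv_eq_one.mp (mul_right_cancel₀ hb (by linear_combination -h1))).symm)
        have ha : co D v 0 = 0 := by
          by_contra ha
          rw [hr'] at h0
          refine hc2 (Units.ext ?_)
          have : (c : F) = (c : F)⁻¹ := mul_right_cancel₀ ha (by linear_combination h0)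
          rw [Units.val_pow_eq_pow_val, Units.val_one, pow_two]
          nth_rw 2 [this]
          exact mul_inv_cancel₀ hc0
        refine ⟨⟨w0 D, w0_mem D h2⟩, ?_⟩
        show w0 D • x0 D = z
        obtain ⟨a', ha', e0⟩ := vec_mk D (w0 D)
        rw [smul_x0]
        refine vec_inj D (c := a' * (-1 / 2) / co D v 2) ?_
        rw [e0, act_w0 D h2, smul_smul, ← hv]
        have hv2 : v = co D v 2 • D.p' 1 := by
          conv_lhs => rw [decomp_co D v, ha, hb, zero_smul, zero_smul, zero_add, zero_add]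
        obtain ⟨e2, he2⟩ : ∃ e2, e2 = co D v 2 := ⟨_, rfl⟩
        rw [← he2] at hv2 he ⊢
        rw [hv2, smul_smul, div_mul_cancel₀ _ he]
    let φ : S →* (powMonoidHom 2 : Fˣ →* Fˣ).ker :=
      (((χ D).comp P.subtype).comp S.subtype).codRestrict _ fun g => hsq g
    have hφ : Function.Injective φ := by
      intro a b h
      have h' : χ D a.1.1 = χ D b.1.1 := congrArg Subtype.val h
      have hk : χ D (a.1.1⁻¹ * b.1.1) = 1 := by rw [map_mul, map_inv, h', inv_mul_cancel]
      by_contra hne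
      have hfix' : (a.1.1⁻¹ * b.1.1).1 • y.1 = y.1 := congrArg Subtype.val ((a⁻¹ * b).2 : (a⁻¹ * b).1 • y = y)
      refine y.2.2 ?_
      rw [Q_fix D ((χ_ker D _).mp hk) (fun e => hne ?_) hfix']
      · exact mem_orbit_self _
      · exact Subtype.ext (Subtype.ext (Subtype.ext (inv_mul_eq_one.mp e)))
    have hd := Subgroup.card_dvd_of_injective φ hφ
    rwa [hker] at hd
  rw [hcardP] at hdvd
  rw [show Nat.card (orbit M (x0 D)) - (q + 1) = Nat.card Y by omega, mul_comm 2]
  exact hdvd

end Cfsg.Agent.H1.SUThree.Orth
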