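import Cfsg.Agent.H1.SUThree.RatCount
import Cfsg.Agent.H2.MinU.S3.Final

/-!
The rational model is maximal in `SU 3` for odd `q` at least seven.
-/

set_option autoImplicit false
set_option linter.unusedSectionVars false

namespace Cfsg.Agent.H1.SUThree.Orth

open Matrix MulAction Cfsg.Agent.H2.MinU Cfsg.Agent.H2.MinU.S3

variable {F : Type*} [Field F] [Fintype F] {q : ℕ}
variable (D : Dat F q) (h2 : (2 : F) ≠ 0) {M : Subgroup (Cfsg.SU (2 + 1) F q)}

include h2

include D in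
lemma odd_q : ¬ 2 ∣ q := by
  intro hd
  obtain ⟨p, j, hp, hc, -, hpq⟩ := H3.exists_q_eq_pow D.hF
  haveI := Fact.mk hp
  have hp2 : p = 2 :=
    ((Nat.prime_dvd_prime_iff_eq Nat.prime_two hp).mp (Nat.prime_two.dvd_of_dvd_pow (hpq ▸ hd))).symm
  subst hp2
  exact h2 (CharP.ofNat_eq_zero' F 2 2 dvd_rfl)

variable (hM : Hm D ≤ M) (hZ : Zs D M = ⊥)
include hM hZ

/-- A transitive overgroup has a small group on the polar line. -/
theorem half_le_five (hq : 3 ≤ q) (hT : ∀ x : X D, ∃ h ∈ M, h • x0 D = x) : q - 1 ≤ 10 := by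
  classical
  have hodd := odd_q D h2
  have hoddq : Odd q := Nat.odd_iff.mpr (Nat.two_dvd_ne_zero.mp hodd)
  have hz : Nat.card (Zs D M) = 1 := by rw [hZ, AddSubgroup.card_bot]
  have hneg : (-1 : Fˣ) ^ (q - 1) = 1 := Even.neg_one_pow (Nat.Odd.sub_odd hoddq odd_one)
  obtain ⟨t, htH, htc, htu, htp'⟩ := exists_lev_rat D (c := (-1 : Fˣ)) (by rw [hneg, one_pow])
  have hu : act t.1 (u1 : Fin (2 + 1) → F) = (1 : F) • u1 := by
    rw [htu, ← Units.val_pow_eq_pow_val, hneg, Units.val_one]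
  have hp : act t.1 (D.p 1) = (-1 : F) • D.p 1 := by rw [act_p_χ D t, htc, Units.val_neg, Units.val_one]
  have hp' : act t.1 (D.p' 1) = (-1 : F) • D.p' 1 := by
    rw [htp', Units.val_neg, Units.val_one, hoddq.neg_one_pow, inv_neg, inv_one]
  have hh : ∀ v, InPl D v → act t.1 v = (-1 : F) • v := by
    intro v hv
    have e : v = Cfsg.hermForm (2 + 1) F q v (D.p' 1) • D.p 1 + Cfsg.hermForm (2 + 1) F q v (D.p 1) • D.p' 1 := by
      conv_lhs => rw [decomp3 D v]
      rw [← coord_u1 D, show Cfsg.hermForm (2 + 1) F q v u1 = 0 from hv, zero_smul, add_zero]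
    conv_lhs => rw [e, act_add, act_smul, act_smul, hp, hp']
    conv_rhs => rw [e]
    module
  have hne1 : (1 : F) ≠ -1 := fun e => h2 (by linear_combination e)
  have htt : t * t = 1 := by
    refine Subtype.ext (ext_act fun v => ?_)
    show act (t.1 * t.1) v = act 1 v
    rw [act_one, act_mul]
    conv_lhs => rw [decomp3 D v]
    conv_rhs => rw [decomp3 D v]
    simp only [act_add, act_smul, hp, hp', hu]
    module
  have ht1 : t ≠ 1 := fun e => neg_one_ne h2 (by rw [← htc, e, map_one])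
  have htr : ∀ y : L D, ∃ g : Mw M, g • y0 D = y := by
    intro y
    obtain ⟨m, hm, hmy⟩ := hT y.1
    have hfix : t.1 • y.1 = y.1 := fix_of_eigen D (hh _ y.2)
    have hk : m⁻¹ * t.1 * m ∈ pst D 1 :=
      (fix_x0 D).mp (by rw [mul_smul, mul_smul, hmy, hfix, ← hmy, inv_smul_smul])
    have htt' : t.1 * t.1 = 1 := congrArg Subtype.val htt
    obtain ⟨s, hs, -, e⟩ := invol_conj (H := M) h2 hodd hz t (hM htH) htc htt (hu.trans (one_smul _ _))
      (k := ⟨_, hk⟩) (M.mul_mem (M.mul_mem (M.inv_mem hm) (hM htH)) hm) (Subtype.ext (by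
        show m⁻¹ * t.1 * m * (m⁻¹ * t.1 * m) = 1
        rw [show m⁻¹ * t.1 * m * (m⁻¹ * t.1 * m) = m⁻¹ * (t.1 * t.1) * m from by simp [mul_assoc], htt',
          mul_one, inv_mul_cancel]))
      (fun e => ht1 (Subtype.ext (by
        have e' : m⁻¹ * t.1 * m = 1 := congrArg Subtype.val e
        rw [mul_assoc, inv_mul_eq_one] at e'
        exact right_eq_mul.mp e')))
    have e' : m⁻¹ * t.1 * m = s.1 * t.1 * s.1⁻¹ := congrArg Subtype.val e
    have e2 : (m * s.1)⁻¹ * t.1 * (m * s.1) = t.1 := by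
      calc (m * s.1)⁻¹ * t.1 * (m * s.1) = s.1⁻¹ * (m⁻¹ * t.1 * m) * s.1 := by group
        _ = t.1 := by rw [e']; group
    have hW : m * s.1 ∈ Wst (F := F) (q := q) := by
      refine wst_of_conj hh hu hne1 (g := m * s.1) (c₁ := -1) (μ₁ := 1) ?_ ?_ hne1
      · rw [e2]; exact hp
      · rw [e2]; exact hu
    refine ⟨⟨m * s.1, M.mul_mem hm hs, hW⟩, Subtype.ext ?_⟩
    show (m * s.1) • x0 D = y.1
    rw [mul_smul, (fix_x0 D).mpr s.2, hmy]
  obtain ⟨hd5, -, -⟩ := line_result_one htr hz hq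
  have hsub : (K0 q F).map (powMonoidHom (q + 1)) ≤ Nw D M := by
    rintro _ ⟨c, hc, rfl⟩
    have hc1 : c ^ (q - 1) = 1 := by
      have := hc
      rwa [SetLike.mem_coe, K0, MonoidHom.mem_ker, powMonoidHom_apply] at this
    obtain ⟨l, hl, hlc, hlu, -⟩ := exists_lev_rat D (c := c) (by rw [hc1, one_pow])
    refine ⟨c, ⟨l, ⟨hM hl, ?_⟩, hlc⟩, rfl⟩
    exact ⟨1, one_ne_zero, by show act l.1 u1 = _; rw [hlu, ← Units.val_pow_eq_pow_val, hc1, Units.val_one]⟩
  have h3 : Nat.card (K0 q F) = q - 1 := by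
    rw [K0, IsCyclic.card_powMonoidHom_ker, Nat.card_units, Nat.card_eq_fintype_card, D.hF,
      show q ^ 2 - 1 = (q + 1) * (q - 1) by rw [← Nat.sq_sub_sq, one_pow]]
    exact Nat.gcd_eq_right (dvd_mul_left _ _)
  have h4 : ∀ c ∈ K0 q F, c ^ (q + 1) = c ^ 2 := fun c hc => by
    rw [K0, MonoidHom.mem_ker, powMonoidHom_apply] at hc
    rw [show q + 1 = (q - 1) + 2 by omega, pow_add, hc, one_mul]
  have h5 : q - 1 ∣ Nat.card ((K0 q F).map (powMonoidHom (q + 1))) * 2 := by
    rw [← h3]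
    exact card_dvd_map_pow_rel (K0 q F) (q + 1) 2 fun c hc h => by rw [← h4 c hc, h]
  have h6 := Nat.le_of_dvd (Nat.mul_pos Nat.card_pos two_pos) h5
  have h7 := Subgroup.card_le_of_le hsub
  omega

/-- The two remaining orders do not occur. -/
theorem no_seven_nine (hq : (q = 7 ∧ Nat.card M = 14448) ∨ (q = 9 ∧ Nat.card M = 52560)) : False := by
  classical
  have hF := D.hF
  have three : ∀ {e c k : ℕ} {r : ℕ}, c ∣ k → (r * e = c ∨ r * e = 3 * c) → r * e ∣ 3 * k := by
    rintro e c k r hc (h | h) <;> rw [h]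
    exacts [hc.mul_left 3, Nat.mul_dvd_mul_left 3 hc]
  have hodd8 : ∀ {c a b : ℕ}, ¬ 2 ∣ c → c ∣ 2 ^ a * b → c ∣ b := fun {c a b} hc h =>
    (Nat.Coprime.pow_right a ((Nat.coprime_comm.1 (Nat.prime_two.coprime_iff_not_dvd.2 hc)))).dvd_of_dvd_mul_left h
  rcases hq with ⟨rfl, hH⟩ | ⟨rfl, hH⟩
  · obtain ⟨n, e, c, hn, h1, hc, hodd, hNc, -⟩ := H76.Singer3.sylow_data hF (r := 43) (by norm_num) (by norm_num)
      (by norm_num) (by norm_num) (by norm_num) (H := M) (m := 336) (by rw [hH]) (by norm_num)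
    have hc' : c ∣ 43 := hodd8 (a := 3) (hodd h2) (by norm_num at hc ⊢; exact hc)
    exact H76.Singer3.search (r := 43) (K := 3) (by norm_num) (by decide) (by norm_num) hn (three hc' hNc |>.trans
      (by norm_num)) (by norm_num) h1
  · obtain ⟨n, e, c, hn, h1, hc, hodd, hNc, -⟩ := H76.Singer3.sylow_data hF (r := 73) (by norm_num) (by norm_num)
      (by norm_num) (by norm_num) (by norm_num) (H := M) (m := 720) (by rw [hH]) (by norm_num)
    have hc' : c ∣ 365 := hodd8 (a := 1) (hodd h2) (by norm_num at hc ⊢; exact hc)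
    exact H76.Singer3.search (r := 73) (K := 15) (by norm_num) (by decide) (by norm_num) hn (three hc' hNc |>.trans
      (by norm_num)) (by norm_num) h1

/-- An overgroup without transvections is the model. -/
theorem eq_or_top (h7 : 7 ≤ q) : M = Hm D ∨ M = ⊤ := by
  classical
  have hodd := odd_q D h2
  obtain ⟨t, ht⟩ : ∃ t, t = Nat.gcd (q + 1) 3 := ⟨_, rfl⟩
  have ht0 : 0 < t := ht ▸ Nat.gcd_pos_of_pos_right _ (by norm_num)
  have ht3 : t = 1 ∨ t = 3 := (Nat.dvd_prime Nat.prime_three).mp (ht ▸ Nat.gcd_dvd_right _ _)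
  obtain ⟨n, hn⟩ : ∃ n, n = Nat.card (orbit M (x0 D)) := ⟨_, rfl⟩
  have hMc : Nat.card M = n * (q * ((q - 1) * t)) := by
    rw [card_eq_orbit D h2 M, ← hn, card_pst D h2 hM hZ, ← ht]
  have hHc : Nat.card (Hm D) = (q + 1) * (q * ((q - 1) * t)) := by
    rw [card_eq_orbit D h2 (Hm D), card_orbit_Hm D h2, stab_eq D h2 hM hZ, ← ht]
  have hpos : 0 < q * ((q - 1) * t) := Nat.mul_pos (by omega) (Nat.mul_pos (by omega) ht0)
  obtain ⟨k, hk⟩ : q + 1 ∣ n := by
    have := Subgroup.card_dvd_of_le hM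
    rw [hMc, hHc] at this
    exact Nat.dvd_of_mul_dvd_mul_right hpos this
  have hdiv := orbit_dvd D h2 hM hZ
  rw [← hn, hk] at hdiv
  have hk0 : k ≠ 0 := fun h => by
    have : 0 < Nat.card M := Nat.card_pos
    rw [hMc, hk, h, mul_zero, zero_mul] at this
    omega
  have hkey : q * (q - 1) ∣ 2 * ((q + 1) * (k - 1)) := by
    have e : (q + 1) * (k - 1) = (q + 1) * k - (q + 1) := by rw [Nat.mul_sub, mul_one]
    rw [e]
    exact hdiv
  have hqk : q ∣ k - 1 := by
    have h1 : q ∣ 2 * ((q + 1) * (k - 1)) := (dvd_mul_right q _).trans hkey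
    have hco2 : Nat.Coprime q 2 := (Nat.prime_two.coprime_iff_not_dvd.mpr hodd).symm
    exact (Nat.coprime_self_add_right.mpr (Nat.coprime_one_right q)).dvd_of_dvd_mul_left
      (hco2.dvd_of_dvd_mul_left h1)
  have hle : k * (q + 1) ≤ q ^ 3 + 1 := by
    rw [mul_comm, ← hk, hn, ← card_X D]
    exact Nat.card_le_card_of_injective _ Subtype.val_injective
  have hGM := Subgroup.card_subgroup_dvd_card M
  rw [card_SU3 D.hF, hMc, hk, show q ^ 2 - 1 = (q + 1) * (q - 1) by rw [← Nat.sq_sub_sq, one_pow]] at hGM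
  have hkd : k ∣ q ^ 3 + 1 := by
    have h1 : k * ((q + 1) * (q - 1) * q) ∣ q ^ 2 * (q ^ 3 + 1) * ((q + 1) * (q - 1) * q) := by
      refine dvd_trans ⟨t, by ring⟩ (hGM.trans (dvd_of_eq ?_))
      ring
    have h3 := Nat.dvd_of_mul_dvd_mul_right
      (Nat.mul_pos (Nat.mul_pos (by omega) (by omega)) (by omega)) h1
    refine Nat.Coprime.dvd_of_dvd_mul_left ?_ h3
    refine Nat.Coprime.pow_right 2 ?_
    obtain ⟨a, ha⟩ := hqk
    rw [show k = q * a + 1 by omega]
    exact Nat.coprime_mul_left_add_left 1 q a |>.mpr (Nat.coprime_one_left q)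
  rcases index_cases (by omega) hqk hkd hle with rfl | rfl | rfl
  · left
    refine (Subgroup.eq_of_le_of_card_ge hM (le_of_eq ?_)).symm
    rw [hMc, hHc, hk, mul_one]
  · -- `q - 1` would divide four
    exfalso
    rw [Nat.add_sub_cancel] at hkey
    have h1 : q - 1 ∣ 2 * (q + 1) := by
      refine Nat.dvd_of_mul_dvd_mul_left (show 0 < q by omega) (hkey.trans (dvd_of_eq ?_))
      ring
    have h3 : q - 1 ∣ 2 * (q - 1) := dvd_mul_left _ _
    have h4 := Nat.dvd_sub h1 h3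
    rw [← Nat.mul_sub, show (q + 1) - (q - 1) = 2 by omega] at h4
    have := Nat.le_of_dvd (by norm_num) h4
    omega
  · by_cases hMT : M = ⊤
    · exact Or.inr hMT
    exfalso
    have hn' : n = q ^ 3 + 1 := by
      obtain ⟨r, rfl⟩ : ∃ r, q = r + 1 := ⟨q - 1, by omega⟩
      rw [hk, Nat.add_sub_cancel]
      ring
    have hT : ∀ x : X D, ∃ h ∈ M, h • x0 D = x := by
      intro x
      have : orbit M (x0 D) = Set.univ := by
        refine Set.eq_of_subset_of_ncard_le (Set.subset_univ _) ?_ Set.finite_univ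
        rw [Set.ncard_univ, card_X, ← Nat.card_coe_set_eq, ← hn, hn']
      obtain ⟨g, hg⟩ := (this.ge (Set.mem_univ x) : x ∈ orbit M (x0 D))
      exact ⟨g.1, g.2, hg⟩
    have hbound := su_three_bound D.hF (by omega) (by omega) M hMT
    have hidx := M.card_mul_index
    rw [card_SU3 D.hF, hMc, hn', show q ^ 2 - 1 = (q + 1) * (q - 1) by rw [← Nat.sq_sub_sq, one_pow]] at hidx
    have hi : t * M.index = q ^ 2 * (q + 1) := by
      refine Nat.eq_of_mul_eq_mul_left
        (show 0 < (q ^ 3 + 1) * q * (q - 1) from Nat.mul_pos (Nat.mul_pos (Nat.succ_pos _) (by omega)) (by omega)) ?_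
      calc (q ^ 3 + 1) * q * (q - 1) * (t * M.index) = (q ^ 3 + 1) * (q * ((q - 1) * t)) * M.index := by ring
        _ = q ^ 3 * (q ^ 3 + 1) * ((q + 1) * (q - 1)) := by rw [hidx]
        _ = _ := by ring
    have ht1 : t = 1 := by
      rcases ht3 with h | h
      · exact h
      · exfalso
        subst h
        nlinarith
    subst ht1
    have h10 := half_le_five D h2 hM hZ (by omega) hT
    have hpp := q_cases D.hF
    have hq79 : q = 7 ∨ q = 9 := by
      have h11 : q ≠ 11 := fun h => by subst h; norm_num at ht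
      omega
    refine no_seven_nine D h2 hM hZ ?_
    rcases hq79 with rfl | rfl
    · exact Or.inl ⟨rfl, by rw [hMc, hn']; norm_num⟩
    · exact Or.inr ⟨rfl, by rw [hMc, hn']; norm_num⟩

omit hM hZ

/-- The model is a maximal subgroup. -/
theorem rat_maximal (h7 : 7 ≤ q) : Hm D ≠ ⊤ ∧ ∀ M, Hm D ≤ M → M = Hm D ∨ M = ⊤ := by
  classical
  refine ⟨fun htop => ?_, fun M hM => ?_⟩
  · have h := card_orbit_Hm D h2
    have : orbit (Hm D) (x0 D) = Set.univ := Set.eq_univ_of_forall fun x => by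
      obtain ⟨g, rfl⟩ := QuotientGroup.mk_surjective x
      exact ⟨⟨g, htop ▸ Subgroup.mem_top g⟩, (smul_x0 D g)⟩
    rw [this, Nat.card_congr (Equiv.Set.univ _), card_X] at h
    have : q * 1 < q * q ^ 2 := Nat.mul_lt_mul_of_pos_left (by nlinarith) (by omega)
    have e : q * q ^ 2 = q ^ 3 := by ring
    omega
  · by_cases hZ : Zs D M = ⊥
    · exact eq_or_top D h2 hM hZ h7
    · obtain ⟨z, hz, hz0⟩ : ∃ z ∈ Zs D M, z ≠ 0 := by
        by_contra h
        push Not at h
        exact hZ (eq_bot_iff.mpr fun z hz => by rw [AddSubgroup.mem_bot]; exact h z hz)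
      exact Or.inr (top_of_Zs D h2 (by omega) hM hz hz0)

end Cfsg.Agent.H1.SUThree.Orth
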