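import Cfsg.Agent.H2.MinU.S3.Plane

/-!
The rational elements of `SU 3` in the coordinates of a hyperbolic frame: a model of the orthogonal subgroup.
-/

set_option autoImplicit false
set_option linter.unusedSectionVars false

namespace Cfsg.Agent.H1.SUThree.Orth

open Matrix MulAction Cfsg.Agent.H2.MinU Cfsg.Agent.H2.MinU.S3

variable {F : Type*} [Field F] [Fintype F] {q : ℕ}

local notation "⟪" u ", " v "⟫" => Cfsg.hermForm _ F q u v
local notation "G" => Cfsg.SU (2 + 1) F q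

variable (D : Dat F q)

/-- The frame. -/
def bas : Fin 3 → (Fin (2 + 1) → F) := ![D.p 1, u1, D.p' 1]

/-- The coordinates in the frame. -/
def co (v : Fin (2 + 1) → F) : Fin 3 → F := ![⟪v, D.p' 1⟫, ⟪v, (u1 : Fin (2 + 1) → F)⟫, ⟪v, D.p 1⟫]

/-- A vector with rational coordinates. -/
def IsRat (v : Fin (2 + 1) → F) : Prop := ∀ i, co D v i ^ q = co D v i

/-- A multiple of `g` is rational in the frame. -/
def RatEl (g : G) : Prop := ∃ c : F, c ≠ 0 ∧ ∀ j, IsRat D (c • act g (bas D j))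

lemma p_u1 : ⟪D.p 1, (u1 : Fin (2 + 1) → F)⟫ = 0 := D.p_up _
lemma p'_u1 : ⟪D.p' 1, (u1 : Fin (2 + 1) → F)⟫ = 0 := D.p'_up _
lemma u1_p : ⟪(u1 : Fin (2 + 1) → F), D.p 1⟫ = 0 := D.up_p _
lemma u1_p' : ⟪(u1 : Fin (2 + 1) → F), D.p' 1⟫ = 0 := D.up_p' _

lemma co_comb (a b e : F) : co D (a • D.p 1 + b • u1 + e • D.p' 1) = ![a, b, e] := by
  simp only [co, hadd_l D.hF, hsmul_l D.hF, D.p_p', D.p'_p, D.p_iso, D.p'_iso, p_u1 D, p'_u1 D, u1_p D, u1_p' D,
    u1_u1 D, mul_zero, mul_one, add_zero, zero_add]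

lemma decomp_co (v : Fin (2 + 1) → F) :
    v = co D v 0 • D.p 1 + co D v 1 • u1 + co D v 2 • D.p' 1 := by
  conv_lhs => rw [decomp3 D v]
  simp only [co, Matrix.cons_val_zero, Matrix.cons_val_one, Matrix.cons_val, coord_u1 D]
  abel

lemma co_smul (c : F) (v : Fin (2 + 1) → F) (i : Fin 3) : co D (c • v) i = c * co D v i := by
  fin_cases i <;> simp [co, hsmul_l D.hF]

lemma co_add (v w : Fin (2 + 1) → F) (i : Fin 3) : co D (v + w) i = co D v i + co D w i := by
  fin_cases i <;> simp [co, hadd_l D.hF]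

lemma IsRat.add {v w : Fin (2 + 1) → F} (hv : IsRat D v) (hw : IsRat D w) : IsRat D (v + w) := fun i => by
  rw [co_add, qadd D.hF, hv i, hw i]

lemma IsRat.smul {v : Fin (2 + 1) → F} {c : F} (hc : c ^ q = c) (hv : IsRat D v) : IsRat D (c • v) := fun i => by
  rw [co_smul, mul_pow, hv i, hc]

lemma isRat_comb {a b e : F} (ha : a ^ q = a) (hb : b ^ q = b) (he : e ^ q = e) :
    IsRat D (a • D.p 1 + b • u1 + e • D.p' 1) := fun i => by
  rw [co_comb]; fin_cases i <;> assumption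

/-- A rational element maps rational vectors to rational vectors, up to its scalar. -/
lemma RatEl.map {g : G} {c : F} (hg : ∀ j, IsRat D (c • act g (bas D j))) {v : Fin (2 + 1) → F}
    (hv : IsRat D v) : IsRat D (c • act g v) := by
  have e : c • act g v = co D v 0 • (c • act g (bas D 0)) + co D v 1 • (c • act g (bas D 1)) +
      co D v 2 • (c • act g (bas D 2)) := by
    conv_lhs => rw [decomp_co D v]
    simp only [act_add, act_smul, bas, Matrix.cons_val_zero, Matrix.cons_val_one, Matrix.cons_val]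
    module
  rw [e]
  exact ((IsRat.smul D (hv 0) (hg 0)).add D (IsRat.smul D (hv 1) (hg 1))).add D (IsRat.smul D (hv 2) (hg 2))

include D in
lemma qzero : (0 : F) ^ q = 0 := zero_pow (q_ne_zero D.hF)

lemma isRat_bas (j : Fin 3) : IsRat D (bas D j) := by
  fin_cases j
  · simpa [bas] using isRat_comb D (a := 1) (b := 0) (e := 0) (one_pow q) (qzero D) (qzero D)
  · simpa [bas] using isRat_comb D (a := 0) (b := 1) (e := 0) (qzero D) (one_pow q) (qzero D)
  · simpa [bas] using isRat_comb D (a := 0) (b := 0) (e := 1) (qzero D) (qzero D) (one_pow q)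

lemma ratEl_one : RatEl D (1 : G) :=
  ⟨1, one_ne_zero, fun j => by rw [one_smul, act_one]; exact isRat_bas D j⟩

lemma ratEl_mul {g h : G} (hg : RatEl D g) (hh : RatEl D h) : RatEl D (g * h) := by
  obtain ⟨c, hc, hg⟩ := hg
  obtain ⟨d, hd, hh⟩ := hh
  refine ⟨c * d, mul_ne_zero hc hd, fun j => ?_⟩
  have := RatEl.map D hg (hh j)
  rwa [act_smul, smul_smul, ← act_mul] at this

lemma ratEl_pow {g : G} (hg : RatEl D g) : ∀ n : ℕ, RatEl D (g ^ n)
  | 0 => by rw [pow_zero]; exact ratEl_one D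
  | n + 1 => by rw [pow_succ]; exact ratEl_mul D (ratEl_pow hg n) hg

/-- The model subgroup. -/
def Hm : Subgroup G where
  carrier := {g | RatEl D g}
  one_mem' := ratEl_one D
  mul_mem' := ratEl_mul D
  inv_mem' {g} hg := by
    show RatEl D g⁻¹
    have h1 : g ^ (orderOf g - 1) * g = 1 := by
      rw [← pow_succ, Nat.sub_add_cancel (orderOf_pos g), pow_orderOf_eq_one]
    rw [← eq_inv_of_mul_eq_one_left h1]
    exact ratEl_pow D hg _

lemma mem_Hm {g : G} : g ∈ Hm D ↔ RatEl D g := Iff.rfl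

lemma ratEl_of_images {g : G} {c : F} (hc : c ≠ 0)
    (h0 : IsRat D (c • act g (D.p 1))) (h1 : IsRat D (c • act g u1)) (h2 : IsRat D (c • act g (D.p' 1))) :
    g ∈ Hm D := ⟨c, hc, fun j => by fin_cases j <;> simpa [bas]⟩

/-- The parameter of a rational radical element. -/
def half (x : F) : F := -(x * x) / 2

variable (h2 : (2 : F) ≠ 0)

include D in
lemma two_fix : (2 : F) ^ q = 2 := by
  rw [show (2 : F) = 1 + 1 by norm_num, qadd D.hF, one_pow]

include h2

include D in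
lemma half_fix {x : F} (hx : x ^ q = x) : half x ^ q = half x := by
  rw [half, div_pow, qneg D.hF, mul_pow, hx, two_fix D]

include D in
lemma half_trace {x : F} (hx : x ^ q = x) : half x + half x ^ q + x * x ^ q = 0 := by
  rw [half_fix D h2 hx, hx, half]
  field_simp
  ring

include D in
lemma okW_R {x : F} (hx : x ^ q = x) : OkW q (fun _ : Fin 1 => x) (half x) := by
  show _ + _ + _ = 0
  rw [form1]
  exact half_trace D h2 hx

omit h2 in
lemma up_const (x : F) : (up (fun _ : Fin 1 => x) : Fin (2 + 1) → F) = x • u1 := up_eq _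

/-- The rational radical element at the base point. -/
noncomputable def Rx (x : F) : G := El D (fun _ : Fin 1 => x) (half x)

lemma Rx_act {x : F} (hx : x ^ q = x) :
    act (Rx D x) (D.p 1) = D.p 1 ∧ act (Rx D x) u1 = u1 + (-x) • D.p 1 ∧
      act (Rx D x) (D.p' 1) = D.p' 1 + x • u1 + half x • D.p 1 := by
  refine ⟨El_fix_p D (okW_R D h2 hx), ?_, ?_⟩
  · rw [Rx, El, act_E D.hF (ok_of (okW_R D h2 hx) D), up_const, hsmul_r D.hF, u1_u1 D, u1_p D, hx]
    module
  · rw [Rx, El, act_E D.hF (ok_of (okW_R D h2 hx) D), up_const, hsmul_r D.hF, p'_u1 D, D.p'_p]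
    module

lemma Rx_mem {x : F} (hx : x ^ q = x) : Rx D x ∈ Hm D ∧ Rx D x ∈ Qg D 1 := by
  obtain ⟨h0, h1, h3⟩ := Rx_act D h2 hx
  refine ⟨ratEl_of_images D one_ne_zero ?_ ?_ ?_, El_mem (okW_R D h2 hx)⟩
  · rw [one_smul, h0]; exact isRat_bas D 0
  · rw [one_smul, h1]
    exact (isRat_bas D 1).add D ((isRat_bas D 0).smul D (by rw [qneg D.hF, hx]))
  · rw [one_smul, h3]
    exact ((isRat_bas D 2).add D ((isRat_bas D 1).smul D hx)).add D ((isRat_bas D 0).smul D (half_fix D h2 hx))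

lemma ok_Ex {x : F} (hx : x ^ q = x) : Ok q (D.p' 1) (x • (u1 : Fin (2 + 1) → F)) (half x) := by
  refine ⟨D.p'_iso, by rw [hsmul_r D.hF, p'_u1 D, mul_zero], ?_⟩
  rw [hsmul_l D.hF, hsmul_r D.hF, u1_u1 D, mul_one]
  exact half_trace D h2 hx

/-- The rational radical element at the opposite point. -/
noncomputable def Ex (x : F) : G := E D.hF (D.p' 1) (x • u1) (half x)

lemma Ex_act {x : F} (hx : x ^ q = x) :
    act (Ex D x) (D.p 1) = D.p 1 + x • u1 + half x • D.p' 1 ∧ act (Ex D x) u1 = u1 + (-x) • D.p' 1 ∧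
      act (Ex D x) (D.p' 1) = D.p' 1 := by
  refine ⟨?_, ?_, ?_⟩
  · rw [Ex, act_E D.hF (ok_Ex D h2 hx), hsmul_r D.hF, p_u1 D, D.p_p']
    module
  · rw [Ex, act_E D.hF (ok_Ex D h2 hx), hsmul_r D.hF, u1_u1 D, u1_p' D, hx]
    module
  · rw [Ex, act_E D.hF (ok_Ex D h2 hx), hsmul_r D.hF, p'_u1 D, D.p'_iso]
    module

lemma Ex_mem {x : F} (hx : x ^ q = x) : Ex D x ∈ Hm D := by
  obtain ⟨h0, h1, h3⟩ := Ex_act D h2 hx
  refine ratEl_of_images D one_ne_zero ?_ ?_ ?_
  · rw [one_smul, h0]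
    exact ((isRat_bas D 0).add D ((isRat_bas D 1).smul D hx)).add D ((isRat_bas D 2).smul D (half_fix D h2 hx))
  · rw [one_smul, h1]
    exact (isRat_bas D 1).add D ((isRat_bas D 2).smul D (by rw [qneg D.hF, hx]))
  · rw [one_smul, h3]; exact isRat_bas D 2

omit h2

/-- The Levi elements of the model. -/
theorem exists_lev_rat {c : Fˣ} (hc : (c ^ (q - 1)) ^ 3 = 1) :
    ∃ g : pst D 1, g.1 ∈ Hm D ∧ χ D g = c ∧ act g.1 u1 = (c : F) ^ (q - 1) • u1 ∧
      act g.1 (D.p' 1) = ((c : F) ^ q)⁻¹ • D.p' 1 := by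
  have hq := H3.two_le_q D.hF
  obtain ⟨l, hl, -, hu⟩ := exists_lev3 D c.ne_zero
  obtain ⟨l', -, hl'⟩ := l.2.2
  have hp : act l.1 (D.p 1) = (c : F) • D.p 1 := by rw [act_p l, hl]
  have e : l' * (c : F) ^ q = 1 := by
    have := form_act l.1 (D.p' 1) (D.p 1)
    rwa [hl', hp, hsmul_l D.hF, hsmul_r D.hF, D.p'_p, mul_one] at this
  have hl'c : l' = ((c : F) ^ q)⁻¹ := eq_inv_of_mul_eq_one_left e
  set η : F := (c : F) ^ (q - 1) with hη
  have hη3 : η ^ 3 = 1 := by
    have := congrArg Units.val hc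
    simpa [hη] using this
  have hη0 : η ≠ 0 := pow_ne_zero _ c.ne_zero
  have hηq1 : η ^ (q + 1) = 1 := by
    rw [hη, ← pow_mul, mul_comm, ← Nat.sq_sub_sq, one_pow, ← D.hF]
    exact FiniteField.pow_card_sub_one_eq_one _ c.ne_zero
  have hcq : (c : F) ^ q = η * c := by rw [hη, ← pow_succ, Nat.sub_add_cancel (by omega)]
  have hηq : η ^ q = η * η := by
    refine mul_right_cancel₀ hη0 ?_
    rw [← pow_succ, hηq1]
    linear_combination -hη3
  refine ⟨⟨l.1, lev_le_pst D l.2⟩, ratEl_of_images D (inv_ne_zero hη0) ?_ ?_ ?_,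
    Units.ext (χ_eq D (g := ⟨l.1, lev_le_pst D l.2⟩) hp), hu, by rw [← hl'c]; exact hl'⟩
  · rw [hp, smul_smul]
    refine (isRat_bas D 0).smul D ?_
    rw [mul_pow, inv_pow, hηq, hcq]
    field_simp
  · rw [hu, smul_smul, inv_mul_cancel₀ hη0, one_smul]; exact isRat_bas D 1
  · rw [hl', smul_smul, hl'c]
    refine (isRat_bas D 2).smul D ?_
    rw [← mul_inv, inv_pow, mul_pow, hηq, qq D.hF, hcq]
    congr 1
    ring

end Cfsg.Agent.H1.SUThree.Orth
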