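import Cfsg.Agent.H1.SUThree.RatModel
import Cfsg.Agent.H1.SUThree.Points

/-!
An overgroup of the rational model: transvections, the point stabiliser and the orbit of the base point.
-/

set_option autoImplicit false
set_option linter.unusedSectionVars false

namespace Cfsg.Agent.H1.SUThree.Orth

open Matrix MulAction Cfsg.Agent.H2.MinU Cfsg.Agent.H2.MinU.S3 Cfsg.Agent.H98 Cfsg.Agent.H98.Herm

variable {F : Type*} [Field F] [Fintype F] {q : ℕ}

local notation "⟪" u ", " v "⟫" => Cfsg.hermForm _ F q u v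
local notation "G" => Cfsg.SU (2 + 1) F q

/-- The matrices. -/
def toG : G →* GL (Fin (2 + 1)) F :=
  (Matrix.SpecialLinearGroup.toGL).comp (Cfsg.SU (2 + 1) F q).subtype

lemma toG_mulVec (g : G) (v : Fin (2 + 1) → F) :
    (toG g : Matrix (Fin (2 + 1)) (Fin (2 + 1)) F) *ᵥ v = act g v := rfl

lemma toG_injective : Function.Injective (toG (F := F) (q := q)) := fun g h e =>
  ext_act fun v => by rw [← toG_mulVec g, e, toG_mulVec]

lemma range_toG : (toG (F := F) (q := q)).range =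
    Cfsg.GU (2 + 1) F q ⊓ Cfsg.Geo.specialLinear (Fin (2 + 1)) F := by
  refine le_antisymm ?_ fun g hg => ?_
  · rintro _ ⟨g, rfl⟩
    exact ⟨fun u v => form_act g u v, MonoidHom.mem_ker.mpr (Units.ext g.1.2)⟩
  · refine ⟨⟨⟨(g : Matrix (Fin (2 + 1)) (Fin (2 + 1)) F), congrArg Units.val (MonoidHom.mem_ker.mp hg.2)⟩,
      fun u v => hg.1 u v⟩, Units.ext rfl⟩

variable (D : Dat F q) (h2 : (2 : F) ≠ 0) {M : Subgroup (Cfsg.SU (2 + 1) F q)}

/-- The fixed field as units. -/
def K0 (q : ℕ) (F : Type*) [Field F] : Subgroup Fˣ := (powMonoidHom (q - 1) : Fˣ →* Fˣ).ker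

include D in
lemma mem_K0 {c : Fˣ} : c ∈ K0 q F ↔ (c : F) ^ q = c := by
  have hq := H3.two_le_q D.hF
  rw [K0, MonoidHom.mem_ker, powMonoidHom_apply, Units.ext_iff, Units.val_pow_eq_pow_val, Units.val_one]
  constructor
  · intro h
    calc (c : F) ^ q = (c : F) ^ (q - 1) * c := by rw [← pow_succ, Nat.sub_add_cancel (by omega)]
      _ = c := by rw [h, one_mul]
  · intro h
    refine mul_right_cancel₀ c.ne_zero ?_
    rw [← pow_succ, Nat.sub_add_cancel (by omega), h, one_mul]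

include h2

/-- A transvection at the base point makes the overgroup everything. -/
theorem top_of_Zs (hq : 3 ≤ q) (hM : Hm D ≤ M) {z : F} (hz : z ∈ Zs D M) (hz0 : z ≠ 0) : M = ⊤ := by
  classical
  have hsq : ∀ y : F, y ^ q = y → y * y * z ∈ Zs D M := by
    intro y hy
    rcases eq_or_ne y 0 with rfl | hy0
    · simp
    obtain ⟨g, hg, hgc, -⟩ := exists_lev_rat D (c := Units.mk0 y hy0) (by
      have : (Units.mk0 y hy0) ∈ K0 q F := (mem_K0 D).mpr hy
      rw [K0, MonoidHom.mem_ker, powMonoidHom_apply] at this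
      rw [this, one_pow])
    have := Zs_stable D M ((mem_Ks D M).mpr ⟨g, hM hg, hgc⟩) hz
    rw [Units.val_pow_eq_pow_val, Units.val_mk0, pow_succ, hy] at this
    exact this
  have hall : ∀ x : F, x ^ q = x → x * z ∈ Zs D M := by
    intro x hx
    have hx2 : (x / 2) ^ q = x / 2 := by rw [div_pow, hx, two_fix D]
    have h1 := hsq (x / 2 + 1) (by rw [qadd D.hF, hx2, one_pow])
    have h3 := hsq (x / 2) hx2
    have h4 := hsq 1 (one_pow q)
    have h5 := sub_mem (sub_mem h1 h3) h4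
    convert h5 using 1
    field_simp
    ring
  have hskew := ((mem_Zs D M).mp hz).1
  have hfull : ∀ a : F, a + a ^ q = 0 → El D (0 : Fin 1 → F) a ∈ M := by
    intro a ha
    have h1 : (a / z) ^ q = a / z := by
      rw [div_pow, eq_neg_of_add_eq_zero_right ha, eq_neg_of_add_eq_zero_right hskew, neg_div_neg_eq]
    have := hall _ h1
    rw [div_mul_cancel₀ _ hz0] at this
    exact ((mem_Zs D M).mp this).2
  set M' := M.map (toG (F := F) (q := q)) with hM'
  have hM'le : M' ≤ Cfsg.GU (2 + 1) F q ⊓ Cfsg.Geo.specialLinear (Fin (2 + 1)) F := by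
    rw [← range_toG]; exact Subgroup.map_le_range _ _
  set hf := isUnitary_std (n := 2 + 1) D.hF with hfdef
  have hiso : ∀ k ∈ M', ∀ a b, Cfsg.hermForm (2 + 1) F q ((k : Matrix (Fin (2 + 1)) (Fin (2 + 1)) F) *ᵥ a)
      ((k : Matrix (Fin (2 + 1)) (Fin (2 + 1)) F) *ᵥ b) = Cfsg.hermForm (2 + 1) F q a b := fun k hk => (hM'le hk).1
  have hp : D.p 1 ∈ centres hf M' := by
    refine ⟨D.p_iso, fun d hd => ?_⟩
    have hd' : d + d ^ q = 0 := by rw [frobQ_apply] at hd; rw [hd, add_neg_cancel]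
    refine ⟨_, hfull d hd', gl_ext fun v => ?_⟩
    rw [toG_mulVec, El_trans, act_trans D.hF D.p_iso hd', uT_mulVec]
  have hmove : ∀ g : G, g ∈ Hm D → act g (D.p 1) ∈ centres hf M' := fun g hg => by
    have := centres_conj hf hiso (show toG g ∈ M' from ⟨g, hM hg, rfl⟩) hp
    rwa [toG_mulVec] at this
  have h2q : ((2 : F)) ^ q = 2 := two_fix D
  have hE := hmove _ (Ex_mem D h2 (one_pow q))
  have hP := hmove _ ((Hm D).mul_mem (Rx_mem D h2 h2q).1 (Ex_mem D h2 (one_pow q)))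
  rw [(Ex_act D h2 (one_pow q)).1] at hE
  have hw0 : act (Rx D 2 * Ex D 1) (D.p 1) = (-1 / 2 : F) • D.p' 1 := by
    obtain ⟨r0, r1, r2⟩ := Rx_act D h2 h2q
    rw [act_mul, (Ex_act D h2 (one_pow q)).1, act_add, act_add, act_smul, act_smul, r0, r1, r2]
    simp only [half]
    match_scalars <;> field_simp <;> ring
  rw [hw0] at hP
  have hne : (-1 / 2 : F) ≠ 0 := div_ne_zero (neg_ne_zero.mpr one_ne_zero) h2
  have hp'C := centres_smul hf hP (-1 / 2 : F)⁻¹
  rw [smul_smul, inv_mul_cancel₀ hne, one_smul] at hp'C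
  have htop := top_std D.hF hq hM'le hp hp'C hE (ne_of_eq_of_ne (D.p_p' (m := 1)) one_ne_zero) fun k l h => by
    have := congrArg (fun v => co D v 1) h
    simp only [co_add, co_smul] at this
    simp [co, p_u1 D, p'_u1 D, u1_u1 D] at this
  rw [eq_top_iff]
  intro g _
  obtain ⟨g', hg', e⟩ := htop (show toG g ∈ _ from range_toG (F := F) (q := q) ▸ ⟨g, rfl⟩)
  rwa [← toG_injective e]

variable (hM : Hm D ≤ M) (hZ : Zs D M = ⊥)

include hM hZ

/-- The radical part of the overgroup is rational. -/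
theorem radical_rat {g : G} (hg : g ∈ M) (hQ : g ∈ Qg D 1) : ∃ x : F, x ^ q = x ∧ g = Rx D x := by
  obtain ⟨w, a, hok, rfl⟩ := hQ
  have hw : w = fun _ : Fin 1 => w 0 := by funext i; fin_cases i; rfl
  have hwA : w 0 ∈ As D M := (mem_As D M).mpr ⟨a, by rw [← hw]; exact hok, by rw [← hw]; exact hg⟩
  have h1 : (1 : F) ∈ As D M := (mem_As D M).mpr ⟨half 1, okW_R D h2 (one_pow q), hM (Rx_mem D h2 (one_pow q)).1⟩
  have hc := comm_mem D M hwA h1
  rw [hZ, AddSubgroup.mem_bot, one_pow, mul_one, one_mul, sub_eq_zero] at hc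
  refine ⟨w 0, hc.symm, ?_⟩
  have hRM := hM (Rx_mem D h2 hc.symm).1
  have hokR := okW_R D h2 hc.symm
  have hd := M.mul_mem hg (M.inv_mem hRM)
  rw [Rx, El_inv hokR, El_mul hok (okW_neg D.hF hokR), ← hw, add_neg_cancel] at hd
  have hz : a + half (w 0) ^ q - Cfsg.hermForm 1 F q (-w) w ∈ Zs D M := by
    refine (mem_Zs D M).mpr ⟨?_, hd⟩
    have h3 := okW_add D.hF hok (okW_neg D.hF hokR)
    rw [← hw, add_neg_cancel, OkW, hzero_l D.hF, add_zero] at h3
    exact h3
  rw [hZ, AddSubgroup.mem_bot, half_fix D h2 hc.symm, form1, Pi.neg_apply] at hz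
  have ha : a = half (w 0) := by
    have := half_trace D h2 hc.symm
    rw [half_fix D h2 hc.symm] at this
    linear_combination hz - this
  rw [Rx, ← hw, ← ha]

/-- The scalars at the base point. -/
theorem Ks_eq : Ks D M = (powMonoidHom (3 * (q - 1)) : Fˣ →* Fˣ).ker := by
  ext c
  rw [MonoidHom.mem_ker, powMonoidHom_apply]
  constructor
  · intro hc
    have h1 : (1 : F) ∈ As D M :=
      (mem_As D M).mpr ⟨half 1, okW_R D h2 (one_pow q), hM (Rx_mem D h2 (one_pow q)).1⟩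
    have h3 := comm_mem D M (As_stable D M hc h1) h1
    rw [hZ, AddSubgroup.mem_bot, one_pow, mul_one, one_mul, mul_one, sub_eq_zero] at h3
    have h4 : (c ^ (2 * q - 1)) ^ (q - 1) = 1 := by
      have : c ^ (2 * q - 1) ∈ K0 q F := (mem_K0 D).mpr h3.symm
      rwa [K0, MonoidHom.mem_ker, powMonoidHom_apply] at this
    rw [mul_comm, pow_mul]
    exact (pow_A_one D (c := c ^ (q - 1)) (by rw [← pow_mul, mul_comm, pow_mul]; exact h4)).1
  · intro hc
    rw [mul_comm, pow_mul] at hc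
    obtain ⟨g, hg, hgc, -⟩ := exists_lev_rat D hc
    exact (mem_Ks D M).mpr ⟨g, hM hg, hgc⟩

/-- The stabiliser of the base point is rational. -/
theorem stab_rat {g : G} (hg : g ∈ M) (hp : g ∈ pst D 1) : g ∈ Hm D := by
  have hc : χ D ⟨g, hp⟩ ∈ Ks D M := (mem_Ks D M).mpr ⟨⟨g, hp⟩, hg, rfl⟩
  rw [Ks_eq D h2 hM hZ, MonoidHom.mem_ker, powMonoidHom_apply, mul_comm, pow_mul] at hc
  obtain ⟨l, hl, hlc, -⟩ := exists_lev_rat D hc
  have hQ : g * l.1⁻¹ ∈ Qg D 1 := by
    have e : χ D (⟨g, hp⟩ * l⁻¹) = 1 := by rw [map_mul, map_inv, hlc, mul_inv_cancel]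
    exact (χ_ker D _).mp e
  obtain ⟨x, hx, e⟩ := radical_rat D h2 hM hZ (M.mul_mem hg (M.inv_mem (hM hl))) hQ
  rw [show g = g * l.1⁻¹ * l.1 by group, e]
  exact (Hm D).mul_mem (Rx_mem D h2 hx).1 hl

/-- The radical image has `q` elements. -/
theorem card_As : Nat.card (As D M) = q := by
  refine Eq.trans ?_ (H3.card_fixed D.hF)
  refine Nat.card_congr (Equiv.subtypeEquivRight fun x => ⟨fun hx => ?_, fun hx => ?_⟩)
  · have h1 : (1 : F) ∈ As D M :=
      (mem_As D M).mpr ⟨half 1, okW_R D h2 (one_pow q), hM (Rx_mem D h2 (one_pow q)).1⟩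
    have hc := comm_mem D M hx h1
    rw [hZ, AddSubgroup.mem_bot, one_pow, mul_one, one_mul, sub_eq_zero] at hc
    exact hc.symm
  · exact (mem_As D M).mpr ⟨half x, okW_R D h2 hx, hM (Rx_mem D h2 hx).1⟩

/-- The order of the stabiliser of the base point. -/
theorem card_pst : Nat.card (M.subgroupOf (pst D 1)) = q * ((q - 1) * Nat.gcd (q + 1) 3) := by
  rw [card_stab, hZ, AddSubgroup.card_bot, one_mul, card_As D h2 hM hZ, Ks_eq D h2 hM hZ,
    IsCyclic.card_powMonoidHom_ker, Nat.card_units, Nat.card_eq_fintype_card, D.hF, mul_comm 3,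
    show q ^ 2 - 1 = (q - 1) * (q + 1) by rw [mul_comm, ← Nat.sq_sub_sq, one_pow], Nat.gcd_mul_left]

end Cfsg.Agent.H1.SUThree.Orth
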