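import Cfsg.Agent.H98.HermPull

/-!
Three non-collinear full root groups generate the three-dimensional special unitary group.
-/

set_option autoImplicit false
set_option linter.unusedSectionVars false

namespace Cfsg.Agent.H1.SUThree

open scoped Matrix
open Cfsg.Agent.H98 Cfsg.Agent.H98.Herm

section Abstract

variable {F : Type*} [Field F] [Finite F]
variable {σ : F ≃+* F} {f : (Fin 3 → F) → (Fin 3 → F) → F} (hf : Cfsg.Geo.IsUnitaryForm σ f)
variable {M : Subgroup (GL (Fin 3) F)}

/-- The coordinates in a hyperbolic pair and a vector orthogonal to it. -/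
structure Pair (u v a : Fin 3 → F) : Prop where
  uu : f u u = 0
  vv : f v v = 0
  uv : f u v = 1
  ua : f u a = 0
  va : f v a = 0
  ne : a ≠ 0

include hf

lemma exists_pole (u v : Fin 3 → F) : ∃ a : Fin 3 → F, a ≠ 0 ∧ f u a = 0 ∧ f v a = 0 := by
  have h := finrank_perp hf ![u, v]
  rw [Fintype.card_fin] at h
  have hpos : 0 < Module.finrank F (LinearMap.ker (LinearMap.pi fun i => fl hf (![u, v] i))) := by omega
  haveI := Module.nontrivial_of_finrank_pos hpos
  obtain ⟨⟨a, ha⟩, ha0⟩ := exists_ne (0 : LinearMap.ker (LinearMap.pi fun i => fl hf (![u, v] i)))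
  refine ⟨a, fun h0 => ha0 (Subtype.ext h0), ?_, ?_⟩
  · exact (eq_zero_comm hf).mp ((mem_perp hf _ a).mp ha 0)
  · exact (eq_zero_comm hf).mp ((mem_perp hf _ a).mp ha 1)

variable {u v a : Fin 3 → F}

lemma Pair.vu (h : Pair (f := f) u v a) : f v u = 1 := by
  rw [← sigma_apply hf u v, h.uv, map_one]

lemma Pair.au (h : Pair (f := f) u v a) : f a u = 0 := (eq_zero_comm hf).mp h.ua

lemma Pair.av (h : Pair (f := f) u v a) : f a v = 0 := (eq_zero_comm hf).mp h.va

lemma Pair.form_coords (h : Pair (f := f) u v a) (k l m : F) :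
    f (k • u + l • v + m • a) v = k ∧ f (k • u + l • v + m • a) u = l ∧
      f (k • u + l • v + m • a) a = m * f a a ∧
      f (k • u + l • v + m • a) (k • u + l • v + m • a) = k * σ l + l * σ k + m * σ m * f a a := by
  refine ⟨?_, ?_, ?_, ?_⟩
  · simp [hf.add_left, hf.smul_left, h.uv, h.vv, h.av hf]
  · simp [hf.add_left, hf.smul_left, h.uu, h.vu hf, h.au hf]
  · simp [hf.add_left, hf.smul_left, h.ua, h.va]
  · simp only [hf.add_left, add_right hf, hf.smul_left, smul_right hf, h.uu, h.vv, h.uv, h.vu hf, h.ua,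
      h.va, h.au hf, h.av hf, mul_zero, add_zero, zero_add, mul_one]
    ring

lemma Pair.indep (h : Pair (f := f) u v a) : LinearIndependent F ![u, v, a] := by
  rw [Fintype.linearIndependent_iff]
  intro g hg
  simp only [Fin.sum_univ_three, Matrix.cons_val_zero, Matrix.cons_val_one, Matrix.cons_val] at hg
  obtain ⟨h1, h2, -, -⟩ := h.form_coords hf (g 0) (g 1) (g 2)
  rw [hg, zero_left hf] at h1 h2
  rw [← h1, ← h2, zero_smul, zero_smul, zero_add, zero_add, smul_eq_zero] at hg
  intro i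
  fin_cases i
  exacts [h1.symm, h2.symm, hg.resolve_right h.ne]

lemma Pair.decomp (h : Pair (f := f) u v a) (x : Fin 3 → F) :
    ∃ k l m : F, x = k • u + l • v + m • a := by
  have hc : Fintype.card (Fin 3) = Module.finrank F (Fin 3 → F) := by simp
  set b := basisOfLinearIndependentOfCardEqFinrank (h.indep hf) hc with hb
  refine ⟨b.repr x 0, b.repr x 1, b.repr x 2, ?_⟩
  conv_lhs => rw [← b.sum_repr x]
  simp [Fin.sum_univ_three, hb]

lemma Pair.aa (h : Pair (f := f) u v a) : f a a ≠ 0 := by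
  intro h0
  obtain ⟨x, hx⟩ := (hf.nondegenerate a h.ne).1
  obtain ⟨k, l, m, rfl⟩ := h.decomp hf x
  exact hx (by rw [(h.form_coords hf k l m).2.2.1, h0, mul_zero])

lemma exists_pair {u₀ v₀ : Fin 3 → F} (huu : f u₀ u₀ = 0) (hvv : f v₀ v₀ = 0) (huv : f u₀ v₀ ≠ 0) :
    ∃ (c : F) (a : Fin 3 → F), c ≠ 0 ∧ Pair (f := f) u₀ (c • v₀) a := by
  obtain ⟨a, ha0, hua, hva⟩ := exists_pole hf u₀ v₀
  refine ⟨σ (f u₀ v₀)⁻¹, a, by simpa using huv, huu, ?_, ?_, hua, ?_, ha0⟩
  · rw [hf.smul_left, smul_right hf, hvv, mul_zero, mul_zero]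
  · rw [smul_right hf, hf.involutive, inv_mul_cancel₀ huv]
  · rw [hf.smul_left, hva, mul_zero]

/-- Three full root groups not on a line give all of them. -/
theorem centres_all (hM : ∀ g ∈ M, ∀ x y, f ((g : Matrix (Fin 3) (Fin 3) F) *ᵥ x) ((g : Matrix (Fin 3) (Fin 3) F) *ᵥ y) = f x y)
    (hp : Pair (f := f) u v a) (hu : u ∈ centres hf M) (hv : v ∈ centres hf M)
    {w : Fin 3 → F} (hw : w ∈ centres hf M) (hwa : f w a ≠ 0) {x : Fin 3 → F} (hx : f x x = 0) :
    x ∈ centres hf M := by
  obtain ⟨k₀, l₀, m₀, rfl⟩ := hp.decomp hf w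
  rw [(hp.form_coords hf _ _ _).2.2.1] at hwa
  have hm0 : m₀ ≠ 0 := left_ne_zero_of_mul hwa
  obtain ⟨k, l, m, rfl⟩ := hp.decomp hf x
  rcases eq_or_ne m 0 with rfl | hm
  · rw [zero_smul, add_zero] at hx ⊢
    exact centres_pair hf hM hu hv (by rw [hp.uv]; exact one_ne_zero) hx
  -- plane parts of the points with last coordinate one
  set Good : F → F → Prop := fun k l => k • u + l • v + (1 : F) • a ∈ centres hf M with hGood
  set c : F := - f a a with hc
  have hc0 : c ≠ 0 := neg_ne_zero.mpr (hp.aa hf)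
  have hσc : σ c = c := by rw [hc, map_neg, sigma_apply hf]
  have iso : ∀ k l, Good k l → k * σ l + l * σ k = c := by
    intro k l h
    have h1 := h.1
    rw [(hp.form_coords hf k l 1).2.2.2, map_one] at h1
    rw [hc]; linear_combination h1
  have moveU : ∀ k l d, Good k l → σ d = -d → Good (k + d * l) l := by
    intro k l d h hd
    have h1 := centres_conj hf hM (hu.2 d hd) h
    rw [uT_mulVec, (hp.form_coords hf k l 1).2.1] at h1
    refine cast (congrArg (· ∈ centres hf M) ?_) h1
    module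
  have moveV : ∀ k l d, Good k l → σ d = -d → Good k (l + d * k) := by
    intro k l d h hd
    have h1 := centres_conj hf hM (hv.2 d hd) h
    rw [uT_mulVec, (hp.form_coords hf k l 1).1] at h1
    refine cast (congrArg (· ∈ centres hf M) ?_) h1
    module
  have changeK : ∀ k k' l, l ≠ 0 → Good k l → k' * σ l + l * σ k' = c → Good k' l := by
    intro k k' l hl h hk'
    have hd : σ ((k' - k) / l) = -((k' - k) / l) := by
      rw [map_div₀, map_sub, ← neg_div, div_eq_div_iff (by simpa using hl) hl]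
      linear_combination hk' - iso k l h
    have := moveU k l _ h hd
    rwa [div_mul_cancel₀ _ hl, add_sub_cancel] at this
  have changeL : ∀ k l r, l ≠ 0 → σ r ≠ r → Good k l → ∃ k', Good k' (r * l) := by
    intro k l r hl hr h
    set z : F := (r - 1) * (l * σ l) with hz
    have hzz : z - σ z ≠ 0 := by
      rw [hz, map_mul, map_sub, map_one, map_mul, hf.involutive]
      intro h0
      refine hr (mul_right_cancel₀ (mul_ne_zero hl ((map_ne_zero σ).mpr hl)) ?_)
      linear_combination -h0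
    set s : F := (z - σ z) / c with hs
    have hs0 : s ≠ 0 := div_ne_zero hzz hc0
    have hσs : σ s = -s := by
      rw [hs, map_div₀, map_sub, hf.involutive, hσc, ← neg_div, neg_sub]
    set k' : F := z / s / σ l with hk'
    have hσl : σ l ≠ 0 := (map_ne_zero σ).mpr hl
    have e1 : k' * σ l = z / s := by rw [hk', div_mul_cancel₀ _ hσl]
    have e2 : l * σ k' = - σ z / s := by
      rw [hk', map_div₀, map_div₀, hf.involutive, hσs, mul_div_assoc', mul_comm, mul_div_assoc, div_self hl,
        mul_one, div_neg, neg_div]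
    have hkc : k' * σ l + l * σ k' = c := by
      rw [e1, e2, ← add_div, ← sub_eq_add_neg, div_eq_iff hs0, hs, mul_div_assoc', mul_comm, mul_div_assoc,
        div_self hc0, mul_one]
    refine ⟨k', ?_⟩
    have := moveV k' l s (changeK k k' l hl h hkc) hσs
    refine cast (congrArg (Good k') ?_) this
    rw [hk', mul_div_assoc', mul_div_assoc', mul_comm s z, mul_div_assoc z s s, div_self hs0, mul_one, hz]
    field_simp
    ring
  obtain ⟨r₀, hr₀⟩ : ∃ r, σ r ≠ r := by
    by_contra hall; push Not at hall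
    exact hf.ne_refl (RingEquiv.ext hall)
  have reach : ∀ k l k' l', l ≠ 0 → l' ≠ 0 → Good k l → k' * σ l' + l' * σ k' = c → Good k' l' := by
    intro k l k' l' hl hl' h hk'
    suffices ∃ k'', Good k'' l' by
      obtain ⟨k'', h''⟩ := this
      exact changeK k'' k' l' hl' h'' hk'
    by_cases hr : σ (l' / l) = l' / l
    · have hr0 : r₀ ≠ 0 := fun e => hr₀ (by rw [e, map_zero])
      obtain ⟨k₁, h₁⟩ := changeL k l r₀ hl hr₀ h
      have hr1 : σ (l' / (r₀ * l)) ≠ l' / (r₀ * l) := by
        rw [mul_comm, ← div_div, map_div₀, hr]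
        intro e
        exact hr₀ (inv_injective (mul_left_cancel₀ (div_ne_zero hl' hl) (by simpa [div_eq_mul_inv] using e)))
      obtain ⟨k₂, h₂⟩ := changeL k₁ (r₀ * l) _ (mul_ne_zero hr0 hl) hr1 h₁
      exact ⟨k₂, by rwa [div_mul_cancel₀ _ (mul_ne_zero hr0 hl)] at h₂⟩
    · obtain ⟨k₁, h₁⟩ := changeL k l _ hl hr h
      exact ⟨k₁, by rwa [div_mul_cancel₀ _ hl] at h₁⟩
  have hg₀ : Good (m₀⁻¹ * k₀) (m₀⁻¹ * l₀) := by
    refine cast (congrArg (· ∈ centres hf M) ?_) (centres_smul hf hw m₀⁻¹)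
    rw [smul_add, smul_add, smul_smul, smul_smul, smul_smul, inv_mul_cancel₀ hm0]
  have hlne : ∀ k l : F, k * σ l + l * σ k = c → l ≠ 0 := by
    intro k l h e; rw [e, map_zero, mul_zero, zero_mul, add_zero] at h; exact hc0 h.symm
  have hx' : m⁻¹ * k * σ (m⁻¹ * l) + m⁻¹ * l * σ (m⁻¹ * k) = c := by
    rw [(hp.form_coords hf k l m).2.2.2] at hx
    rw [hc, map_mul, map_mul, map_inv₀]
    have hσm : σ m ≠ 0 := (map_ne_zero σ).mpr hm
    field_simp
    linear_combination hx
  have := centres_smul hf (reach _ _ _ _ (hlne _ _ (iso _ _ hg₀)) (hlne _ _ hx') hg₀ hx') m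
  rwa [smul_add, smul_add, smul_smul, smul_smul, smul_smul, mul_inv_cancel_left₀ hm, mul_inv_cancel_left₀ hm,
    mul_one] at this

end Abstract

section Standard

variable {F : Type*} [Field F] [Fintype F] {q : ℕ} (hF : Fintype.card F = q ^ 2)
include hF

/-- All unitary transvections give all determinant-one isometries in dimension three. -/
theorem isoSL_le_of_uT (hq : 3 ≤ q) (P : GL (Fin 3) F) {M : Subgroup (GL (Fin 3) F)}
    (h : ∀ v, ∀ hv : pullForm 3 q P v v = 0, ∀ d, frobQ hF d = -d → uT (isUnitary_pull hF P) hv d ∈ M) :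
    isoSL (pullForm 3 q P) ≤ M := by
  have hle : Cfsg.GU 3 F q ⊓ Cfsg.Geo.specialLinear (Fin 3) F ≤ M.map (MulAut.conj P).toMonoidHom := by
    rintro g ⟨hg, hdet⟩
    have hker : (⟨g, hg⟩ : Cfsg.GU 3 F q) ∈ (Cfsg.Agent.H3.guDet 3 F q).ker := MonoidHom.mem_ker.mp hdet
    have hgen : Cfsg.Agent.H3.transGroup 3 F q ≤
        (M.map (MulAut.conj P).toMonoidHom).comap (Cfsg.GU 3 F q).subtype := by
      refine (Subgroup.closure_le _).2 ?_
      rintro s ⟨v, c, hv, hs⟩
      change (s : GL (Fin 3) F) ∈ M.map (MulAut.conj P).toMonoidHom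
      rcases eq_or_ne v 0 with rfl | hv0
      · convert (M.map (MulAut.conj P).toMonoidHom).one_mem using 1
        refine gl_ext fun x => ?_
        change (s.1 : Matrix (Fin 3) (Fin 3) F) *ᵥ x = _
        rw [hs, Cfsg.Agent.H3.unitaryTransvection_mulVec]; simp
      have hc : c + c ^ q = 0 := Cfsg.Agent.H3.trace_zero_of_transvection_preserves hF hv0 hv fun x y => by
        rw [← hs]; exact s.2 x y
      have hv' : pullForm 3 q P (((P⁻¹ : GL (Fin 3) F) : Matrix (Fin 3) (Fin 3) F) *ᵥ v)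
          (((P⁻¹ : GL (Fin 3) F) : Matrix (Fin 3) (Fin 3) F) *ᵥ v) = 0 := by
        simp only [pullForm, gl_mulVec_inv]; exact hv
      refine ⟨_, h _ hv' c (by rw [frobQ_apply]; linear_combination hc), gl_ext fun x => ?_⟩
      change ((P * uT (isUnitary_pull hF P) hv' c * P⁻¹ : GL (Fin 3) F) : Matrix (Fin 3) (Fin 3) F) *ᵥ x =
        ((s : GL (Fin 3) F) : Matrix (Fin 3) (Fin 3) F) *ᵥ x
      rw [hs, Cfsg.Agent.H3.unitaryTransvection_mulVec]
      simp only [Units.val_mul, ← Matrix.mulVec_mulVec, uT_mulVec, Matrix.mulVec_add, Matrix.mulVec_smul,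
        gl_mulVec_inv, pullForm]
    exact hgen (Cfsg.Agent.H3.ker_le_transGroup hF (by omega) (by omega) hker)
  rw [← map_isoSL_pull P] at hle
  exact (Subgroup.map_le_map_iff_of_injective (MulAut.conj P).injective).mp hle

/-- An overgroup with three non-collinear full root groups is everything. -/
theorem top_of_three (hq : 3 ≤ q) (P : GL (Fin 3) F) {M : Subgroup (GL (Fin 3) F)}
    (hM : M ≤ isoSL (pullForm 3 q P)) {u v w : Fin 3 → F}
    (hu : u ∈ centres (isUnitary_pull hF P) M) (hv : v ∈ centres (isUnitary_pull hF P) M)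
    (hw : w ∈ centres (isUnitary_pull hF P) M) (huv : pullForm 3 q P u v ≠ 0)
    (hind : ∀ k l : F, w ≠ k • u + l • v) : M = isoSL (pullForm 3 q P) := by
  have hf := isUnitary_pull hF P
  obtain ⟨c, a, hc, hp⟩ := exists_pair hf hu.1 hv.1 huv
  refine le_antisymm hM (isoSL_le_of_uT hF hq P fun x hx => ?_)
  have hall := centres_all hf (fun g hg => (mem_isoSL.mp (hM hg)).1) hp hu (centres_smul hf hv c) hw ?_ hx
  · exact hall.2
  · intro h0
    obtain ⟨k, l, m, e⟩ := hp.decomp hf w
    rw [e, (hp.form_coords hf k l m).2.2.1, mul_eq_zero, or_iff_left (hp.aa hf)] at h0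
    refine hind k (l * c) ?_
    rw [e, h0, zero_smul, add_zero, smul_smul]

end Standard

end Cfsg.Agent.H1.SUThree
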